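import Cfsg.Agent.PGroup.KrekninScalars
import Mathlib.Algebra.DirectSum.Basic
import Mathlib.GroupTheory.Nilpotent
import Mathlib.GroupTheory.QuotientGroup.Basic
import Mathlib.GroupTheory.Commutator.Basic
import Mathlib.GroupTheory.PGroup

/-!
The Lie ring of the lower central series of a group, and the consequence of the bound of
Higman, Kreknin and Kostrikin for groups.
-/

set_option linter.style.haveILetI false

open scoped commutatorElement

namespace Cfsg.Agent.PGroup.AssocLie

open Cfsg.Agent.PGroup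

variable (G : Type*) [Group G]

/-- The lower central series, indexed from zero. -/
abbrev γ (k : ℕ) : Subgroup G := (⊤ : Subgroup G).lowerCentralSeries k

variable {G}

theorem comm_succ {k : ℕ} {x : G} (hx : x ∈ γ G k) (y : G) : ⁅x, y⁆ ∈ γ G (k + 1) :=
  Subgroup.commutator_mem_commutator hx (Subgroup.mem_top y)

theorem γ_le {i j : ℕ} (h : i ≤ j) : γ G j ≤ γ G i :=
  (⊤ : Subgroup G).lowerCentralSeries_antitone h

theorem γ_conj {k : ℕ} {x : G} (hx : x ∈ γ G k) (g : G) : g * x * g⁻¹ ∈ γ G k :=
  (inferInstance : (γ G k).Normal).conj_mem x hx g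

theorem γ_conj' {k : ℕ} {x : G} (hx : x ∈ γ G k) (g : G) : g⁻¹ * x * g ∈ γ G k := by
  simpa using γ_conj hx g⁻¹

theorem comm_swap {k : ℕ} {x y : G} (h : ⁅x, y⁆ ∈ γ G k) : ⁅y, x⁆ ∈ γ G k := by
  rw [← commutatorElement_inv]
  exact inv_mem h

theorem comm_mem : ∀ (j i : ℕ) {x y : G}, x ∈ γ G i → y ∈ γ G j → ⁅x, y⁆ ∈ γ G (i + j + 1) := by
  intro j
  induction j with
  | zero => intro i x y hx _; exact comm_succ hx y
  | succ j ih =>
    intro i x y hx hy
    have hy' := (Subgroup.mem_lowerCentralSeries_succ_iff (⊤ : Subgroup G) j y).mp hy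
    clear hy
    induction hy' using Subgroup.closure_induction with
    | mem y hy =>
      obtain ⟨b, hb, c, -, rfl⟩ := hy
      have ha : c⁻¹ * x * c ∈ γ G i := γ_conj' hx c
      have h := commutatorElement_commutatorElement_conj_mul (c⁻¹ * x * c) b c
      have h1 : ⁅⁅c⁻¹ * x * c, b⁆, b * c * b⁻¹⁆ ∈ γ G (i + (j + 1) + 1) :=
        comm_succ (ih i ha hb) _
      have h3 : ⁅⁅c, c⁻¹ * x * c⁆, (c⁻¹ * x * c) * b * (c⁻¹ * x * c)⁻¹⁆ ∈ γ G (i + (j + 1) + 1) := by
        have := ih (i + 1) (comm_swap (comm_succ ha c)) (γ_conj hb (c⁻¹ * x * c))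
        rwa [show i + 1 + j + 1 = i + (j + 1) + 1 by omega] at this
      have h2 : ⁅⁅b, c⁆, c * (c⁻¹ * x * c) * c⁻¹⁆ ∈ γ G (i + (j + 1) + 1) := by
        rw [← (γ G (i + (j + 1) + 1)).mul_mem_cancel_left h1,
          ← (γ G (i + (j + 1) + 1)).mul_mem_cancel_right h3, h]
        exact one_mem _
      rw [show c * (c⁻¹ * x * c) * c⁻¹ = x by group] at h2
      exact comm_swap h2
    | one => rw [commutatorElement_one_right]; exact one_mem _
    | mul u v hu' hv' hu hv =>
      rw [commutatorElement_mul_right_eq_mul_conj, mul_assoc, mul_assoc, ← mul_assoc u]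
      exact mul_mem hu
        (γ_conj hv u)
    | inv u hu' hu =>
      rw [commutatorElement_inv_right]
      exact γ_conj' (comm_swap hu) u

/-- The factors of the lower central series. -/
abbrev Quo (G : Type*) [Group G] (k : ℕ) : Type _ :=
  (γ G k) ⧸ (γ G (k + 1)).subgroupOf (γ G k)

theorem quo_comm (k : ℕ) (x y : Quo G k) : x * y = y * x := by
  induction x using QuotientGroup.induction_on with
  | H a =>
    induction y using QuotientGroup.induction_on with
    | H b =>
      rw [← QuotientGroup.mk_mul, ← QuotientGroup.mk_mul, QuotientGroup.eq, Subgroup.mem_subgroupOf]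
      have h : (((a * b)⁻¹ * (b * a) : γ G k) : G) = ⁅(b : G)⁻¹, (a : G)⁻¹⁆ := by
        simp [commutatorElement_def, mul_assoc]
      rw [h]
      exact comm_succ (inv_mem b.2) _

instance (k : ℕ) : CommGroup (Quo G k) :=
  { (inferInstance : Group (Quo G k)) with mul_comm := quo_comm k }

/-- The additive group of the Lie ring. -/
abbrev L (G : Type*) [Group G] : Type _ := DirectSum ℕ fun k => Additive (Quo G k)

open scoped Classical in
/-- The image of an element of the lower central series. -/
noncomputable def ι (k : ℕ) (g : G) : L G :=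
  if h : g ∈ γ G k then DirectSum.of _ k (Additive.ofMul ((⟨g, h⟩ : γ G k) : Quo G k)) else 0

theorem ι_def (k : ℕ) (g : γ G k) :
    ι k (g : G) = DirectSum.of _ k (Additive.ofMul (g : Quo G k)) := by
  rw [ι, dif_pos g.2]

theorem ι_one (k : ℕ) : ι k (1 : G) = 0 := by
  have h := ι_def k (1 : γ G k)
  rw [Subgroup.coe_one] at h
  rw [h, QuotientGroup.mk_one, ofMul_one, map_zero]

theorem ι_mul {k : ℕ} {g h : G} (hg : g ∈ γ G k) (hh : h ∈ γ G k) : ι k (g * h) = ι k g + ι k h := by
  have e := ι_def k ((⟨g, hg⟩ : γ G k) * ⟨h, hh⟩)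
  rw [QuotientGroup.mk_mul, ofMul_mul, map_add, ← ι_def, ← ι_def] at e
  exact e

theorem ι_inv {k : ℕ} {g : G} (hg : g ∈ γ G k) : ι k g⁻¹ = - ι k g := by
  have e := ι_mul hg (inv_mem hg)
  rw [mul_inv_cancel, ι_one] at e
  exact eq_neg_of_add_eq_zero_right e.symm

theorem ι_eq_zero {k : ℕ} {g : G} (hg : g ∈ γ G (k + 1)) : ι k g = 0 := by
  have h := ι_def k ⟨g, γ_le (Nat.le_succ k) hg⟩
  rw [h, (QuotientGroup.eq_one_iff _).mpr (Subgroup.mem_subgroupOf.mpr hg), ofMul_one, map_zero]

theorem ι_conj {k : ℕ} {g : G} (hg : g ∈ γ G k) (c : G) : ι k (c * g * c⁻¹) = ι k g := by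
  rw [show c * g * c⁻¹ = ⁅c, g⁆ * g by simp [commutatorElement_def],
    ι_mul (γ_le (Nat.le_succ k) (comm_swap (comm_succ hg c))) hg,
    ι_eq_zero (comm_swap (comm_succ hg c)), zero_add]

theorem ι_inj {k : ℕ} {g h : G} (hg : g ∈ γ G k) (hh : h ∈ γ G k) (e : ι k g = ι k h) :
    g⁻¹ * h ∈ γ G (k + 1) := by
  have e1 := ι_def k ⟨g, hg⟩
  have e2 := ι_def k ⟨h, hh⟩
  have e3 := DirectSum.of_injective k (e1.symm.trans (e.trans e2))
  exact Subgroup.mem_subgroupOf.mp (QuotientGroup.eq.mp (Additive.ofMul.injective e3))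

theorem ι_induction {P : L G → Prop} (x : L G) (zero : P 0)
    (of : ∀ k, ∀ g ∈ γ G k, P (ι k g)) (add : ∀ x y, P x → P y → P (x + y)) : P x := by
  induction x using DirectSum.induction_on with
  | zero => exact zero
  | of k q =>
    obtain ⟨g, hg⟩ : ∃ g : γ G k, (g : Quo G k) = q.toMul := QuotientGroup.mk_surjective _
    have h := of k g g.2
    rw [ι_def, hg] at h
    exact h
  | add x y hx hy => exact add x y hx hy

theorem comm_mul_left {i j : ℕ} {a b c : G} (ha : a ∈ γ G i) (hb : b ∈ γ G i) (hc : c ∈ γ G j) :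
    ι (i + j + 1) ⁅a * b, c⁆ = ι (i + j + 1) ⁅a, c⁆ + ι (i + j + 1) ⁅b, c⁆ := by
  rw [commutatorElement_mul_left_eq_conj_mul, ι_mul (γ_conj (comm_mem j i hb hc) a) (comm_mem j i ha hc),
    ι_conj (comm_mem j i hb hc), add_comm]

theorem comm_mul_right {i j : ℕ} {a b c : G} (ha : a ∈ γ G i) (hb : b ∈ γ G j) (hc : c ∈ γ G j) :
    ι (i + j + 1) ⁅a, b * c⁆ = ι (i + j + 1) ⁅a, b⁆ + ι (i + j + 1) ⁅a, c⁆ := by
  rw [commutatorElement_mul_right_eq_mul_conj, mul_assoc, mul_assoc, ← mul_assoc b,
    ι_mul (comm_mem j i ha hb) (γ_conj (comm_mem j i ha hc) b), ι_conj (comm_mem j i ha hc)]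

/-- The bracket on factors. -/
noncomputable def bFun (i j : ℕ) (x : Quo G i) (y : Quo G j) : L G :=
  Quotient.liftOn₂' x y (fun a b => ι (i + j + 1) ⁅(a : G), (b : G)⁆) fun a b a' b' ha hb => by
    rw [QuotientGroup.leftRel_apply, Subgroup.mem_subgroupOf] at ha hb
    have ea : (a' : G) = a * ((a⁻¹ * a' : γ G i) : G) := by simp
    have eb : (b' : G) = b * ((b⁻¹ * b' : γ G j) : G) := by simp
    have za : ι (i + j + 1) ⁅((a⁻¹ * a' : γ G i) : G), (b' : G)⁆ = 0 := by
      refine ι_eq_zero ?_
      have := comm_mem j (i + 1) ha b'.2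
      rwa [show i + 1 + j + 1 = i + j + 1 + 1 by omega] at this
    have zb : ι (i + j + 1) ⁅(a : G), ((b⁻¹ * b' : γ G j) : G)⁆ = 0 :=
      ι_eq_zero (comm_mem (j + 1) i a.2 hb)
    symm
    rw [ea, comm_mul_left a.2 (a⁻¹ * a').2 b'.2, za, add_zero, eb,
      comm_mul_right a.2 b.2 (b⁻¹ * b').2, zb, add_zero]

theorem bFun_mk (i j : ℕ) (a : γ G i) (b : γ G j) :
    bFun i j (a : Quo G i) (b : Quo G j) = ι (i + j + 1) ⁅(a : G), (b : G)⁆ := rfl

theorem bFun_mul_left (i j : ℕ) (x x' : Quo G i) (y : Quo G j) :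
    bFun i j (x * x') y = bFun i j x y + bFun i j x' y := by
  induction x using QuotientGroup.induction_on with
  | H a => induction x' using QuotientGroup.induction_on with
    | H a' => induction y using QuotientGroup.induction_on with
      | H b => exact comm_mul_left a.2 a'.2 b.2

theorem bFun_mul_right (i j : ℕ) (x : Quo G i) (y y' : Quo G j) :
    bFun i j x (y * y') = bFun i j x y + bFun i j x y' := by
  induction x using QuotientGroup.induction_on with
  | H a => induction y using QuotientGroup.induction_on with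
    | H b => induction y' using QuotientGroup.induction_on with
      | H b' => exact comm_mul_right a.2 b.2 b'.2

/-- The bracket on factors, as an additive map. -/
noncomputable def bHom (i j : ℕ) : Additive (Quo G i) →+ Additive (Quo G j) →+ L G :=
  AddMonoidHom.mk'
    (fun x => AddMonoidHom.mk' (fun y => bFun i j x.toMul y.toMul)
      fun y y' => bFun_mul_right i j x.toMul y.toMul y'.toMul)
    fun x x' => AddMonoidHom.ext fun y => bFun_mul_left i j x.toMul x'.toMul y.toMul

/-- The bracket. -/
noncomputable def bracketHom : L G →+ L G →+ L G :=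
  DirectSum.toAddMonoid fun i => (DirectSum.toAddMonoid fun j => (bHom i j).flip).flip

theorem bracketHom_ι {i j : ℕ} {a b : G} (ha : a ∈ γ G i) (hb : b ∈ γ G j) :
    bracketHom (ι i a) (ι j b) = ι (i + j + 1) ⁅a, b⁆ := by
  have e1 := ι_def i ⟨a, ha⟩
  have e2 := ι_def j ⟨b, hb⟩
  rw [show ι i a = _ from e1, show ι j b = _ from e2, bracketHom, DirectSum.toAddMonoid_of,
    AddMonoidHom.flip_apply, DirectSum.toAddMonoid_of, AddMonoidHom.flip_apply]
  exact bFun_mk i j ⟨a, ha⟩ ⟨b, hb⟩

theorem bracketHom_skew (x y : L G) : bracketHom x y = -bracketHom y x := by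
  induction x using ι_induction with
  | zero => simp
  | of i a ha =>
    induction y using ι_induction with
    | zero => simp
    | of j b hb =>
      rw [bracketHom_ι ha hb, bracketHom_ι hb ha, ← ι_inv (comm_mem i j hb ha), commutatorElement_inv,
        show j + i + 1 = i + j + 1 by omega]
    | add u v hu hv => rw [map_add, map_add, AddMonoidHom.add_apply, hu, hv, neg_add]
  | add u v hu hv => rw [map_add, map_add, AddMonoidHom.add_apply, hu, hv, neg_add]

theorem bracketHom_self (x : L G) : bracketHom x x = 0 := by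
  induction x using ι_induction with
  | zero => simp
  | of i a ha => rw [bracketHom_ι ha ha, commutatorElement_self, ι_one]
  | add u v hu hv =>
    simp only [map_add, AddMonoidHom.add_apply, hu, hv, bracketHom_skew u v]
    abel

theorem bracketHom_jacobi (x y z : L G) : bracketHom (bracketHom x y) z +
    bracketHom (bracketHom y z) x + bracketHom (bracketHom z x) y = 0 := by
  induction x using ι_induction with
  | zero => simp
  | of i a ha =>
    induction y using ι_induction with
    | zero => simp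
    | of j b hb =>
      induction z using ι_induction with
      | zero => simp
      | of k c hc =>
        have hab := comm_mem j i ha hb
        have hbc := comm_mem k j hb hc
        have hca := comm_mem i k hc ha
        conv_lhs => arg 1; arg 1; rw [bracketHom_ι ha hb, ← ι_conj hc b, bracketHom_ι hab (γ_conj hc b)]
        conv_lhs => arg 1; arg 2; rw [bracketHom_ι hb hc, ← ι_conj ha c, bracketHom_ι hbc (γ_conj ha c)]
        conv_lhs => arg 2; rw [bracketHom_ι hc ha, ← ι_conj hb a, bracketHom_ι hca (γ_conj hb a)]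
        have h1 := comm_mem k (i + j + 1) hab (γ_conj hc b)
        have h2 := comm_mem i (j + k + 1) hbc (γ_conj ha c)
        have h3 := comm_mem j (k + i + 1) hca (γ_conj hb a)
        rw [show j + k + 1 + i + 1 = i + j + 1 + k + 1 by omega] at h2 ⊢
        rw [show k + i + 1 + j + 1 = i + j + 1 + k + 1 by omega] at h3 ⊢
        rw [← ι_mul h1 h2, ← ι_mul (mul_mem h1 h2) h3,
          commutatorElement_commutatorElement_conj_mul, ι_one]
      | add u v hu hv =>
        simp only [map_add, AddMonoidHom.add_apply]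
        linear_combination (norm := abel) hu + hv
    | add u v hu hv =>
      simp only [map_add, AddMonoidHom.add_apply]
      linear_combination (norm := abel) hu + hv
  | add u v hu hv =>
    simp only [map_add, AddMonoidHom.add_apply]
    linear_combination (norm := abel) hu + hv

noncomputable instance instLieRing : LieRing (L G) where
  bracket x y := bracketHom x y
  add_lie x y z := by simp [map_add]
  lie_add x y z := by simp [map_add]
  lie_self x := bracketHom_self x
  leibniz_lie x y z := by
    show bracketHom x (bracketHom y z) = bracketHom (bracketHom x y) z + bracketHom y (bracketHom x z)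
    have h1 : bracketHom y (bracketHom x z) = bracketHom (bracketHom z x) y := by
      rw [bracketHom_skew x z, map_neg, bracketHom_skew y, neg_neg]
    have h2 := bracketHom_jacobi x y z
    rw [h1, bracketHom_skew x (bracketHom y z)]
    linear_combination (norm := abel) -h2

theorem lie_ι {i j : ℕ} {a b : G} (ha : a ∈ γ G i) (hb : b ∈ γ G j) :
    ⁅ι i a, ι j b⁆ = ι (i + j + 1) ⁅a, b⁆ := bracketHom_ι ha hb

theorem ι_mem_lcs : ∀ (k : ℕ) {g : G}, g ∈ γ G k → ι k g ∈ Kreknin.lcs (L G) k := by
  intro k
  induction k with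
  | zero => exact fun _ => AddSubgroup.mem_top _
  | succ k ih =>
    intro g hg
    have hg' := (Subgroup.mem_lowerCentralSeries_succ_iff (⊤ : Subgroup G) k g).mp hg
    clear hg
    induction hg' using Subgroup.closure_induction with
    | mem g hg =>
      obtain ⟨a, ha, b, -, rfl⟩ := hg
      have h := Kreknin.lie_mem_lcs_succ (ih ha) (ι 0 b)
      rw [lie_ι ha (show b ∈ γ G 0 from Subgroup.mem_top b)] at h
      exact h
    | one => rw [ι_one]; exact zero_mem _
    | mul u v hu' hv' hu hv =>
      have mu := (Subgroup.mem_lowerCentralSeries_succ_iff (⊤ : Subgroup G) k u).mpr hu'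
      have mv := (Subgroup.mem_lowerCentralSeries_succ_iff (⊤ : Subgroup G) k v).mpr hv'
      rw [ι_mul mu mv]
      exact add_mem hu hv
    | inv u hu' hu =>
      have mu := (Subgroup.mem_lowerCentralSeries_succ_iff (⊤ : Subgroup G) k u).mpr hu'
      rw [ι_inv mu]
      exact neg_mem hu

/-- A vanishing term of the lower central series of the Lie ring gives one for the group. -/
theorem γ_eq_bot [Group.IsNilpotent G] {n : ℕ} (h : Kreknin.lcs (L G) n = ⊥) : γ G n = ⊥ := by
  have h1 : γ G n ≤ γ G (n + 1) := fun g hg => by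
    have hz := ι_mem_lcs n hg
    rw [h, AddSubgroup.mem_bot, ← ι_one] at hz
    have := ι_inj hg (one_mem _) hz
    rwa [mul_one, inv_mem_iff] at this
  have h2 : ∀ m, γ G n ≤ γ G (n + m) := by
    intro m
    induction m with
    | zero => exact le_rfl
    | succ m ih => exact h1.trans (Subgroup.commutator_mono ih le_rfl)
  obtain ⟨c, hc⟩ := Subgroup.nilpotent_iff_lowerCentralSeries.mp ‹Group.IsNilpotent G›
  exact eq_bot_iff.mpr (((h2 c).trans (γ_le (Nat.le_add_left c n))).trans hc.le)

section Auto

variable (φ : G ≃* G)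

theorem map_γ {k : ℕ} {g : G} (hg : g ∈ γ G k) : φ g ∈ γ G k := by
  have h : (γ G k).map φ.toMonoidHom ≤ γ G k := by
    rw [Subgroup.map_lowerCentralSeries]
    exact Subgroup.lowerCentralSeries_mono k le_top
  exact h ⟨g, hg, rfl⟩

/-- The induced map on a factor. -/
noncomputable def quoMap (k : ℕ) : Quo G k →* Quo G k :=
  QuotientGroup.map _ _ ((φ.toMonoidHom.comp (γ G k).subtype).codRestrict (γ G k) fun g => map_γ φ g.2)
    fun g hg => Subgroup.mem_comap.mpr (Subgroup.mem_subgroupOf.mpr
      (map_γ φ (Subgroup.mem_subgroupOf.mp hg)))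

/-- The induced map on the Lie ring. -/
noncomputable def lieMap : L G →+ L G :=
  DirectSum.map fun k => (quoMap φ k).toAdditive

theorem lieMap_ι {k : ℕ} {g : G} (hg : g ∈ γ G k) : lieMap φ (ι k g) = ι k (φ g) := by
  have e1 := ι_def k ⟨g, hg⟩
  have e2 := ι_def k ⟨φ g, map_γ φ hg⟩
  rw [show ι k g = _ from e1, show ι k (φ g) = _ from e2, lieMap, DirectSum.map_of]
  rfl

theorem lieMap_lie (x y : L G) : lieMap φ ⁅x, y⁆ = ⁅lieMap φ x, lieMap φ y⁆ := by
  induction x using ι_induction with
  | zero => simp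
  | of i a ha =>
    induction y using ι_induction with
    | zero => simp
    | of j b hb =>
      rw [lie_ι ha hb, lieMap_ι φ (comm_mem j i ha hb), lieMap_ι φ ha, lieMap_ι φ hb,
        lie_ι (map_γ φ ha) (map_γ φ hb), map_commutatorElement]
    | add u v hu hv => simp only [lie_add, map_add, hu, hv]
  | add u v hu hv => simp only [add_lie, map_add, hu, hv]

theorem lieMap_iterate_ι (n : ℕ) {k : ℕ} {g : G} (hg : g ∈ γ G k) :
    (lieMap φ)^[n] (ι k g) = ι k (φ^[n] g) ∧ φ^[n] g ∈ γ G k := by
  induction n with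
  | zero => exact ⟨rfl, hg⟩
  | succ n ih =>
    rw [Function.iterate_succ_apply', Function.iterate_succ_apply', ih.1, lieMap_ι φ ih.2]
    exact ⟨rfl, map_γ φ ih.2⟩

variable [Finite G] {p : ℕ}

/-- The data needed for the bound of Higman, Kreknin and Kostrikin. -/
theorem traceZero (hfpf : ∀ g : G, φ g = g → g = 1) (hord : ∀ g, φ^[p] g = g)
    (hcop : (Nat.card G).Coprime p) :
    Nonempty (Kreknin.TraceZero p (Nat.card G) (L G)) := by
  refine ⟨⟨lieMap φ, lieMap_lie φ, ?_, ?_, ?_, hcop⟩⟩
  · intro x
    induction x using ι_induction with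
    | zero => exact iterate_map_zero _ _
    | of k g hg => rw [(lieMap_iterate_ι φ p hg).1, hord]
    | add u v hu hv => rw [iterate_map_add, hu, hv]
  · intro x
    induction x using ι_induction with
    | zero => exact Finset.sum_eq_zero fun i _ => iterate_map_zero _ _
    | of k g hg =>
      set S := ∑ i ∈ Finset.range p, (lieMap φ)^[i] (ι k g) with hS
      obtain ⟨h, hh, hSh⟩ : ∃ h ∈ γ G k, S = ι k h := by
        rw [hS]
        refine Finset.sum_induction _ (fun s => ∃ h ∈ γ G k, s = ι k h) ?_ ⟨1, one_mem _, (ι_one k).symm⟩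
          fun i _ => ⟨_, (lieMap_iterate_ι φ i hg).2, (lieMap_iterate_ι φ i hg).1⟩
        rintro _ _ ⟨a, ha, rfl⟩ ⟨b, hb, rfl⟩
        exact ⟨a * b, mul_mem ha hb, (ι_mul ha hb).symm⟩
      have hfix : lieMap φ S = S := by
        have e1 := Finset.sum_range_succ' (fun i => (lieMap φ)^[i] (ι k g)) p
        have e2 := Finset.sum_range_succ (fun i => (lieMap φ)^[i] (ι k g)) p
        rw [e2] at e1
        simp only [Function.iterate_zero_apply, (lieMap_iterate_ι φ p hg).1, hord] at e1
        rw [hS, map_sum]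
        refine Eq.trans ?_ (add_right_cancel e1).symm
        exact Finset.sum_congr rfl fun i _ => (Function.iterate_succ_apply' _ i _).symm
      rw [hSh, lieMap_ι φ hh] at hfix
      have hmem := ι_inj hh (map_γ φ hh) hfix.symm
      have hinj : Function.Injective
          (fun u : γ G (k + 1) => (⟨(u : G)⁻¹ * φ u, mul_mem (inv_mem u.2) (map_γ φ u.2)⟩ :
            γ G (k + 1))) := by
        intro u v huv
        have e : (u : G)⁻¹ * φ u = (v : G)⁻¹ * φ v := congrArg Subtype.val huv
        have e' : φ u = u * ((v : G)⁻¹ * φ v) := by rw [← e, mul_inv_cancel_left]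
        have e'' := hfpf ((u : G) * (v : G)⁻¹) (by rw [map_mul, map_inv, e']; group)
        exact Subtype.ext (mul_inv_eq_one.mp e'')
      obtain ⟨u, hu⟩ := Finite.injective_iff_surjective.mp hinj ⟨h⁻¹ * φ h, hmem⟩
      have e : (u : G)⁻¹ * φ u = h⁻¹ * φ h := congrArg Subtype.val hu
      have e' : φ h = h * ((u : G)⁻¹ * φ u) := by rw [e, mul_inv_cancel_left]
      have e'' := hfpf (h * (u : G)⁻¹) (by rw [map_mul, map_inv, e']; group)
      rw [mul_inv_eq_one.mp e''] at hSh
      rw [hSh, ι_eq_zero u.2]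
    | add u v hu hv => simp only [iterate_map_add, Finset.sum_add_distrib, hu, hv, add_zero]
  · intro x
    induction x using ι_induction with
    | zero => exact smul_zero _
    | of k g hg =>
      have h : ∀ n : ℕ, n • ι k g = ι k (g ^ n) := by
        intro n
        induction n with
        | zero => rw [zero_smul, pow_zero, ι_one]
        | succ n ih => rw [succ_nsmul, ih, pow_succ, ι_mul (pow_mem hg n) hg]
      rw [h, pow_card_eq_one', ι_one]
    | add u v hu hv => rw [smul_add, hu, hv, add_zero]

/-- A fixed-point-free automorphism of prime order forces order prime to `p`. -/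
theorem coprime_card [hp : Fact p.Prime] (hord : orderOf (φ : MulAut G) = p)
    (hfpf : ∀ g : G, φ g = g → g = 1) : (Nat.card G).Coprime p := by
  have hZ : IsPGroup p (Subgroup.zpowers (φ : MulAut G)) :=
    IsPGroup.of_card (n := 1) (by rw [Nat.card_zpowers, hord, pow_one])
  have h := hZ.card_modEq_card_fixedPoints G
  have hF : MulAction.fixedPoints (Subgroup.zpowers (φ : MulAut G)) G = {1} := by
    ext g
    constructor
    · intro hg
      exact hfpf g (hg ⟨φ, Subgroup.mem_zpowers _⟩)
    · rintro rfl m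
      exact map_one (m : MulAut G)
  rw [hF, Nat.card_coe_set_eq, Set.ncard_singleton] at h
  rw [Nat.coprime_comm, hp.out.coprime_iff_not_dvd]
  intro hd
  have h1 : (1 : ℕ) % p = 0 := by
    rw [← h]
    exact Nat.mod_eq_zero_of_dvd hd
  rw [Nat.one_mod_eq_one.mpr hp.out.ne_one] at h1
  exact one_ne_zero h1

end Auto

end Cfsg.Agent.PGroup.AssocLie
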