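import Cfsg.Agent.PGroup.ClassTwo
import Mathlib.Algebra.BigOperators.Group.Finset.Defs

/-!
# The Baer correspondence for groups of odd exponent and class two
-/

namespace Cfsg.Agent.PGroup

open scoped commutatorElement

/-- Copy of a group of odd exponent and class two with the abelian Baer product. -/
structure Baer (D : Type*) (p : ℕ) where
  /-- the underlying element -/
  val : D

/-- Hypotheses of the Baer correspondence. -/
class IsBaer (D : Type*) [Group D] (p : ℕ) : Prop where
  odd : Odd p
  classTwo : commutator D ≤ Subgroup.center D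
  exp : ∀ x : D, x ^ p = 1

namespace Baer

variable {D : Type*} [Group D] {p : ℕ}

theorem ext' {x y : Baer D p} (h : x.val = y.val) : x = y := by
  cases x; cases y; simp_all

instance : Mul (Baer D p) :=
  ⟨fun x y => ⟨x.val * y.val * ⁅y.val, x.val⁆ ^ ((p + 1) / 2)⟩⟩

instance : One (Baer D p) := ⟨⟨1⟩⟩

instance : Inv (Baer D p) := ⟨fun x => ⟨x.val⁻¹⟩⟩

theorem val_mul (x y : Baer D p) :
    (x * y).val = x.val * y.val * ⁅y.val, x.val⁆ ^ ((p + 1) / 2) := rfl

theorem val_one : (1 : Baer D p).val = 1 := rfl

theorem val_inv (x : Baer D p) : x⁻¹.val = x.val⁻¹ := rfl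

variable [hb : IsBaer D p]
include hb

omit p hb in
theorem half_add_half {p : ℕ} (h : Odd p) : (p + 1) / 2 + (p + 1) / 2 = p + 1 := by
  obtain ⟨m, rfl⟩ := h; omega

theorem pow_two_half (a b : D) :
    ⁅a, b⁆ ^ ((p + 1) / 2) * ⁅a, b⁆ ^ ((p + 1) / 2) = ⁅a, b⁆ := by
  rw [← pow_add, half_add_half hb.odd, pow_succ, hb.exp, one_mul]

theorem comm_pow (a b g : D) (n : ℕ) : g * ⁅a, b⁆ ^ n = ⁅a, b⁆ ^ n * g :=
  Subgroup.mem_center_iff.mp (pow_mem (commutatorElement_mem_center hb.classTwo a b) n) g

theorem commutator_mul_central_right (c a z : D) (hz : z ∈ Subgroup.center D) :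
    ⁅c, a * z⁆ = ⁅c, a⁆ := by
  have h1 : ⁅c, z⁆ = 1 :=
    commutatorElement_eq_one_iff_mul_comm.mpr (Subgroup.mem_center_iff.mp hz c)
  rw [commutatorElement_mul_right (commutatorElement_mem_center hb.classTwo c z), h1, mul_one]

theorem commutator_mul_central_left (c a z : D) (hz : z ∈ Subgroup.center D) :
    ⁅a * z, c⁆ = ⁅a, c⁆ := by
  have h1 : ⁅z, c⁆ = 1 :=
    commutatorElement_eq_one_iff_mul_comm.mpr (Subgroup.mem_center_iff.mp hz c).symm
  rw [commutatorElement_mul_left (commutatorElement_mem_center hb.classTwo z c), h1, mul_one]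

instance instCommGroup : CommGroup (Baer D p) where
  mul_assoc x y z := by
    have hc := fun a b => commutatorElement_mem_center hb.classTwo a b
    apply ext'
    simp only [val_mul]
    rw [commutator_mul_central_right (p := p) z.val (x.val * y.val) _ (pow_mem (hc _ _) _),
      commutator_mul_central_left (p := p) x.val (y.val * z.val) _ (pow_mem (hc _ _) _),
      commutatorElement_mul_right (hc z.val y.val), commutatorElement_mul_left (hc z.val x.val),
      (show Commute ⁅z.val, x.val⁆ ⁅z.val, y.val⁆ from
        Subgroup.mem_center_iff.mp (hc _ _) _).mul_pow,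
      (show Commute ⁅y.val, x.val⁆ ⁅z.val, x.val⁆ from
        Subgroup.mem_center_iff.mp (hc _ _) _).mul_pow]
    set h := (p + 1) / 2
    set u := ⁅y.val, x.val⁆ ^ h
    set v := ⁅z.val, x.val⁆ ^ h
    set w := ⁅z.val, y.val⁆ ^ h
    have hu : ∀ g, g * u = u * g := fun g => comm_pow (p := p) _ _ g h
    have hw : ∀ g, g * w = w * g := fun g => comm_pow (p := p) _ _ g h
    calc x.val * y.val * u * z.val * (v * w)
        = x.val * y.val * z.val * (u * v * w) := by
          rw [mul_assoc (x.val * y.val) u, ← hu z.val]; simp only [mul_assoc]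
      _ = x.val * (y.val * z.val * w) * (u * v) := by
          rw [hw (u * v)]; simp only [mul_assoc]
  one_mul x := by
    apply ext'
    simp [val_mul, val_one]
  mul_one x := by
    apply ext'
    simp [val_mul, val_one]
  inv_mul_cancel x := by
    apply ext'
    have : ⁅x.val, x.val⁻¹⁆ = 1 := by simp [commutatorElement_def]
    simp [val_mul, val_one, val_inv, this]
  mul_comm x y := by
    apply ext'
    simp only [val_mul]
    rw [mul_comm_eq_commutatorElement_mul x.val y.val]
    have hc := commutatorElement_mem_center hb.classTwo x.val y.val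
    have h1 : ⁅y.val, x.val⁆ = ⁅x.val, y.val⁆⁻¹ := (commutatorElement_inv _ _).symm
    rw [h1, inv_pow]
    have h2 := pow_two_half (p := p) x.val y.val
    have h3 := fun g => comm_pow (p := p) x.val y.val g ((p + 1) / 2)
    set c := ⁅x.val, y.val⁆ ^ ((p + 1) / 2)
    rw [← h2]
    calc c * c * (y.val * x.val) * c⁻¹ = c * ((c * (y.val * x.val)) * c⁻¹) := by simp only [mul_assoc]
      _ = c * (y.val * x.val) := by conv_lhs => rw [← h3 (y.val * x.val), mul_inv_cancel_right]
      _ = y.val * x.val * c := (h3 _).symm

theorem val_pow (x : Baer D p) (n : ℕ) : (x ^ n).val = x.val ^ n := by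
  induction n with
  | zero => simp [val_one]
  | succ n ih =>
    have : ⁅x.val, x.val ^ n⁆ = 1 :=
      commutatorElement_eq_one_iff_mul_comm.mpr ((Commute.refl x.val).pow_right n)
    rw [pow_succ, val_mul, ih, pow_succ, this, one_pow, mul_one]

theorem pow_eq_one (x : Baer D p) : x ^ p = 1 :=
  ext' (by rw [val_pow, hb.exp, val_one])

/-- An automorphism of `D` as an automorphism of its Baer copy. -/
def mapAut : MulAut D →* MulAut (Baer D p) where
  toFun e :=
    { toFun := fun x => ⟨e x.val⟩
      invFun := fun x => ⟨e.symm x.val⟩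
      left_inv := fun x => ext' (e.symm_apply_apply _)
      right_inv := fun x => ext' (e.apply_symm_apply _)
      map_mul' := fun x y => ext' (by
        show e (x * y).val = _
        simp only [val_mul, map_mul, map_pow, map_commutatorElement]) }
  map_one' := MulEquiv.ext fun x => rfl
  map_mul' e f := MulEquiv.ext fun x => rfl

theorem mapAut_val (e : MulAut D) (x : Baer D p) : (mapAut e x).val = e x.val := rfl

end Baer

end Cfsg.Agent.PGroup
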