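import Mathlib.Algebra.Lie.Basic
import Mathlib.Data.ZMod.Basic
import Mathlib.Algebra.Field.ZMod
import Mathlib.Data.List.Perm.Subperm
import Mathlib.Tactic.Ring
import Mathlib.Tactic.Abel
import Mathlib.Tactic.Linarith
import Mathlib.Tactic.NormNum
import Mathlib.Algebra.BigOperators.Intervals
import Mathlib.Algebra.BigOperators.Ring.Finset
import Mathlib.Algebra.Group.Subgroup.Lattice

/-!
# Lie rings graded by `ZMod p` with trivial zero component

Kreknin's bound on the derived length and Higman's bound on the nilpotency class.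
-/

set_option linter.style.haveILetI false

namespace Cfsg.Agent.PGroup.Kreknin

open AddSubgroup

variable {L : Type*} [LieRing L] {p : ℕ} [hp : Fact p.Prime]

/-- A grading by `ZMod p` with trivial zero component, with projections. -/
structure Grading (p : ℕ) (L : Type*) [LieRing L] where
  C : ZMod p → AddSubgroup L
  P : ZMod p → L →+ L
  lie_mem : ∀ {i j : ZMod p} {x y : L}, x ∈ C i → y ∈ C j → ⁅x, y⁆ ∈ C (i + j)
  proj_self : ∀ {i : ZMod p} {x : L}, x ∈ C i → P i x = x
  proj_ne : ∀ {i j : ZMod p} {x : L}, x ∈ C j → j ≠ i → P i x = 0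
  span : ∀ x : L, x ∈ closure {y | ∃ i, y ∈ C i}
  zero : C 0 = ⊥

theorem lie_mem_of_closure {S T : Set L} {W : AddSubgroup L}
    (h : ∀ s ∈ S, ∀ t ∈ T, ⁅s, t⁆ ∈ W) {x y : L} (hx : x ∈ closure S) (hy : y ∈ closure T) :
    ⁅x, y⁆ ∈ W := by
  induction hx using AddSubgroup.closure_induction with
  | mem s hs =>
    induction hy using AddSubgroup.closure_induction with
    | mem t ht => exact h s hs t ht
    | zero => rw [lie_zero]; exact zero_mem _
    | add a b _ _ ha hb => rw [lie_add]; exact add_mem ha hb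
    | neg a _ ha => rw [lie_neg]; exact neg_mem ha
  | zero => rw [zero_lie]; exact zero_mem _
  | add a b _ _ ha hb => rw [add_lie]; exact add_mem ha hb
  | neg a _ ha => rw [neg_lie]; exact neg_mem ha

/-- The derived subgroup of a subgroup. -/
def derived (U : AddSubgroup L) : AddSubgroup L :=
  closure {z | ∃ x ∈ U, ∃ y ∈ U, ⁅x, y⁆ = z}

theorem lie_mem_derived {U : AddSubgroup L} {x y : L} (hx : x ∈ U) (hy : y ∈ U) :
    ⁅x, y⁆ ∈ derived U := subset_closure ⟨x, hx, y, hy, rfl⟩

theorem derived_mono {U V : AddSubgroup L} (h : U ≤ V) : derived U ≤ derived V :=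
  closure_mono fun _ ⟨x, hx, y, hy, hxy⟩ => ⟨x, h hx, y, h hy, hxy⟩

theorem derived_iterate_mono {U V : AddSubgroup L} (h : U ≤ V) (n : ℕ) :
    derived^[n] U ≤ derived^[n] V := by
  induction n with
  | zero => exact h
  | succ n ih => rw [Function.iterate_succ_apply', Function.iterate_succ_apply']; exact derived_mono ih

/-- The lower central series, indexed from zero. -/
def lcs (L : Type*) [LieRing L] : ℕ → AddSubgroup L
  | 0 => ⊤
  | n + 1 => closure {z | ∃ x ∈ lcs L n, ∃ y : L, ⁅x, y⁆ = z}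

theorem lie_mem_lcs_succ {n : ℕ} {x : L} (hx : x ∈ lcs L n) (y : L) : ⁅x, y⁆ ∈ lcs L (n + 1) :=
  subset_closure ⟨x, hx, y, rfl⟩

theorem lcs_antitone_step (n : ℕ) : lcs L (n + 1) ≤ lcs L n := by
  induction n with
  | zero => exact le_top
  | succ n ih =>
    refine (closure_le _).mpr ?_
    rintro z ⟨x, hx, y, rfl⟩
    exact lie_mem_lcs_succ (ih hx) y

theorem lcs_le_of_le {m n : ℕ} (h : m ≤ n) : lcs L n ≤ lcs L m := by
  induction h with
  | refl => exact le_rfl
  | step _ ih => exact (lcs_antitone_step _).trans ih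

theorem lie_lcs : ∀ (j i : ℕ) (x y : L), x ∈ lcs L i → y ∈ lcs L j → ⁅x, y⁆ ∈ lcs L (i + j + 1) := by
  intro j
  induction j with
  | zero => intro i x y hx _; exact lie_mem_lcs_succ hx y
  | succ j ih =>
    intro i x y hx hy
    refine lie_mem_of_closure (S := (lcs L i : Set L))
      (T := {z | ∃ u ∈ lcs L j, ∃ v : L, ⁅u, v⁆ = z}) ?_ (subset_closure hx) hy
    rintro a ha - ⟨u, hu, v, rfl⟩
    rw [leibniz_lie]
    refine add_mem ?_ ?_
    · exact lie_mem_lcs_succ (ih i a u ha hu) v
    · have h1 := ih (i + 1) ⁅a, v⁆ u (lie_mem_lcs_succ ha v) hu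
      rw [show i + 1 + j + 1 = i + (j + 1) + 1 by ring] at h1
      rw [← lie_skew]
      exact neg_mem h1

namespace Grading

variable (𝔊 : Grading p L)

/-- Homogeneous elements. -/
def Hom (x : L) : Prop := ∃ i, x ∈ 𝔊.C i

theorem hom_lie {x y : L} (hx : 𝔊.Hom x) (hy : 𝔊.Hom y) : 𝔊.Hom ⁅x, y⁆ := by
  obtain ⟨i, hi⟩ := hx
  obtain ⟨j, hj⟩ := hy
  exact ⟨i + j, 𝔊.lie_mem hi hj⟩

/-- A graded subring. -/
structure IsGraded (U : AddSubgroup L) : Prop where
  span : U ≤ closure {x | x ∈ U ∧ 𝔊.Hom x}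
  closed : ∀ x ∈ U, ∀ y ∈ U, ⁅x, y⁆ ∈ U

theorem isGraded_top : 𝔊.IsGraded ⊤ :=
  ⟨fun x _ => by
    refine closure_mono ?_ (𝔊.span x)
    exact fun y hy => ⟨mem_top y, hy⟩, fun _ _ _ _ => mem_top _⟩

theorem derived_le {U : AddSubgroup L} (hU : 𝔊.IsGraded U) : derived U ≤ U :=
  (closure_le _).mpr fun _ ⟨x, hx, y, hy, hxy⟩ => hxy ▸ hU.closed x hx y hy

theorem isGraded_derived {U : AddSubgroup L} (hU : 𝔊.IsGraded U) : 𝔊.IsGraded (derived U) := by
  refine ⟨(closure_le _).mpr ?_, fun x hx y hy =>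
    lie_mem_derived (𝔊.derived_le hU hx) (𝔊.derived_le hU hy)⟩
  rintro z ⟨x, hx, y, hy, rfl⟩
  refine lie_mem_of_closure (S := {x | x ∈ U ∧ 𝔊.Hom x}) (T := {x | x ∈ U ∧ 𝔊.Hom x}) ?_
    (hU.span hx) (hU.span hy)
  intro s hs t ht
  exact subset_closure ⟨lie_mem_derived hs.1 ht.1, 𝔊.hom_lie hs.2 ht.2⟩

theorem isGraded_iterate {U : AddSubgroup L} (hU : 𝔊.IsGraded U) (n : ℕ) :
    𝔊.IsGraded (derived^[n] U) := by
  induction n with
  | zero => exact hU
  | succ n ih => rw [Function.iterate_succ_apply']; exact 𝔊.isGraded_derived ih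

theorem derived_iterate_le {U : AddSubgroup L} (hU : 𝔊.IsGraded U) (n : ℕ) : derived^[n] U ≤ U := by
  induction n with
  | zero => exact le_rfl
  | succ n ih =>
    rw [Function.iterate_succ_apply']
    exact (𝔊.derived_le (𝔊.isGraded_iterate hU n)).trans ih

theorem eq_zero_of_mem_C_zero {x : L} (hx : x ∈ 𝔊.C 0) : x = 0 := by
  rw [𝔊.zero] at hx
  exact hx

/-- Left-normed monomials in the elements of `U` of degree above `k`. -/
inductive Mon (𝔊 : Grading p L) (U : AddSubgroup L) (k : ℕ) : L → Prop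
  | gen {x : L} {i : ZMod p} (hx : x ∈ U) (hi : x ∈ 𝔊.C i) (hk : k < i.val) : Mon 𝔊 U k x
  | lie {m x : L} {i : ZMod p} (hm : Mon 𝔊 U k m) (hx : x ∈ U) (hi : x ∈ 𝔊.C i)
      (hk : k < i.val) : Mon 𝔊 U k ⁅m, x⁆

theorem Mon.hom {U : AddSubgroup L} {k : ℕ} {m : L} (h : Mon 𝔊 U k m) : 𝔊.Hom m := by
  induction h with
  | gen _ hi _ => exact ⟨_, hi⟩
  | lie _ _ hi _ ih => exact 𝔊.hom_lie ih ⟨_, hi⟩

theorem Mon.mem {U : AddSubgroup L} {k : ℕ} {m : L} (hU : 𝔊.IsGraded U) (h : Mon 𝔊 U k m) :
    m ∈ U := by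
  induction h with
  | gen hx _ _ => exact hx
  | lie _ hx _ _ ih => exact hU.closed _ ih _ hx

/-- The subring generated by the elements of `U` of degree above `k`. -/
def high (U : AddSubgroup L) (k : ℕ) : AddSubgroup L := closure {m | Mon 𝔊 U k m}

theorem mon_lie_high {U : AddSubgroup L} {k : ℕ} {b : L} (hb : Mon 𝔊 U k b) :
    ∀ h ∈ 𝔊.high U k, ⁅h, b⁆ ∈ 𝔊.high U k := by
  induction hb with
  | @gen x i hx hi hk =>
    intro h hh
    refine lie_mem_of_closure (S := {m | Mon 𝔊 U k m}) (T := {x}) ?_ hh (subset_closure rfl)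
    intro a ha y hy
    rw [Set.mem_singleton_iff.mp hy]
    exact subset_closure (Mon.lie ha hx hi hk)
  | @lie m x i _ hx hi hk ih =>
    intro h hh
    have hstep : ∀ g ∈ 𝔊.high U k, ⁅g, x⁆ ∈ 𝔊.high U k := fun g hg => by
      refine lie_mem_of_closure (S := {m | Mon 𝔊 U k m}) (T := {x}) ?_ hg (subset_closure rfl)
      intro a ha y hy
      rw [Set.mem_singleton_iff.mp hy]
      exact subset_closure (Mon.lie ha hx hi hk)
    rw [leibniz_lie]
    refine add_mem (hstep _ (ih h hh)) ?_
    rw [← lie_skew]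
    exact neg_mem (ih _ (hstep h hh))

theorem high_closed {U : AddSubgroup L} {k : ℕ} :
    ∀ x ∈ 𝔊.high U k, ∀ y ∈ 𝔊.high U k, ⁅x, y⁆ ∈ 𝔊.high U k := fun _ hx _ hy =>
  lie_mem_of_closure (S := (𝔊.high U k : Set L)) (T := {m | Mon 𝔊 U k m})
    (fun a ha b hb => 𝔊.mon_lie_high hb a ha) (subset_closure hx) hy

/-- Brackets in `high` are spanned by brackets with generators on the right. -/
theorem derived_high_le {U : AddSubgroup L} {k : ℕ} : derived (𝔊.high U k) ≤
    closure {z | ∃ m x : L, ∃ i : ZMod p, Mon 𝔊 U k m ∧ x ∈ U ∧ x ∈ 𝔊.C i ∧ k < i.val ∧ ⁅m, x⁆ = z} := by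
  set W := closure
    {z | ∃ m x : L, ∃ i : ZMod p, Mon 𝔊 U k m ∧ x ∈ U ∧ x ∈ 𝔊.C i ∧ k < i.val ∧ ⁅m, x⁆ = z}
  have hgen : ∀ h ∈ 𝔊.high U k, ∀ (x : L) (i : ZMod p), x ∈ U → x ∈ 𝔊.C i → k < i.val →
      ⁅h, x⁆ ∈ W := fun h hh x i hx hi hk => by
    refine lie_mem_of_closure (S := {m | Mon 𝔊 U k m}) (T := {x}) ?_ hh (subset_closure rfl)
    intro a ha y hy
    rw [Set.mem_singleton_iff.mp hy]
    exact subset_closure ⟨a, x, i, ha, hx, hi, hk, rfl⟩
  have hb : ∀ b, Mon 𝔊 U k b → ∀ h ∈ 𝔊.high U k, ⁅h, b⁆ ∈ W := by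
    intro b hb
    induction hb with
    | gen hx hi hk => exact fun h hh => hgen h hh _ _ hx hi hk
    | @lie m x i hm hx hi hk ih =>
      intro h hh
      rw [leibniz_lie]
      refine add_mem ?_ ?_
      · exact hgen _ (𝔊.high_closed h hh m (subset_closure hm)) x i hx hi hk
      · rw [← lie_skew]
        exact neg_mem (ih _ (𝔊.high_closed h hh x (subset_closure (Mon.gen hx hi hk))))
  refine (closure_le _).mpr ?_
  rintro z ⟨a, ha, b, hb', rfl⟩
  exact lie_mem_of_closure (S := (𝔊.high U k : Set L)) (T := {m | Mon 𝔊 U k m})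
    (fun a ha b hb'' => hb b hb'' a ha) (subset_closure ha) hb'

/-- The iterated derived lengths in Kreknin's theorem. -/
def steps : ℕ → ℕ
  | 0 => 0
  | k + 1 => 2 * steps k + 1

theorem steps_eq (k : ℕ) : steps k = 2 ^ k - 1 := by
  induction k with
  | zero => rfl
  | succ k ih =>
    rw [steps, ih, pow_succ]
    have := Nat.one_le_two_pow (n := k)
    omega

theorem kreknin_step : ∀ (k : ℕ), k < p → ∀ U, 𝔊.IsGraded U →
    derived^[steps k] U ≤ 𝔊.high U k := by
  intro k
  induction k with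
  | zero =>
    intro _ U hU
    refine hU.span.trans ((closure_le _).mpr ?_)
    rintro x ⟨hx, i, hi⟩
    by_cases hi0 : i.val = 0
    · rw [ZMod.val_eq_zero] at hi0
      subst hi0
      rw [𝔊.eq_zero_of_mem_C_zero hi]
      exact zero_mem _
    · exact subset_closure (Mon.gen hx hi (Nat.pos_of_ne_zero hi0))
  | succ k ih =>
    intro hkp U hU
    set f := steps k
    set N := derived^[f + 1] U with hN
    have hNg := 𝔊.isGraded_iterate hU (f + 1)
    rw [steps, show 2 * steps k + 1 = f + (f + 1) by omega, Function.iterate_add_apply, ← hN]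
    refine (ih (by omega) N hNg).trans ((closure_le _).mpr ?_)
    have hNU : N ≤ U := 𝔊.derived_iterate_le hU _
    have hN' : N ≤ closure {z | ∃ m x : L, ∃ i : ZMod p,
        Mon 𝔊 U k m ∧ x ∈ U ∧ x ∈ 𝔊.C i ∧ k < i.val ∧ ⁅m, x⁆ = z} := by
      rw [hN, Function.iterate_succ_apply']
      exact (derived_mono (ih (by omega) U hU)).trans 𝔊.derived_high_le
    have hgood : ∀ (y : L) (j : ZMod p), y ∈ N → y ∈ 𝔊.C j → k < j.val → y ∈ 𝔊.high U (k + 1) := by
      intro y j hyN hj hkj
      by_cases hj' : k + 1 < j.val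
      · exact subset_closure (Mon.gen (hNU hyN) hj hj')
      have hjv : j.val = k + 1 := by omega
      have key : ∀ z ∈ closure {z | ∃ m x : L, ∃ i : ZMod p,
          Mon 𝔊 U k m ∧ x ∈ U ∧ x ∈ 𝔊.C i ∧ k < i.val ∧ ⁅m, x⁆ = z},
          𝔊.P j z ∈ 𝔊.high U (k + 1) := by
        intro z hz
        induction hz using AddSubgroup.closure_induction with
        | mem z hz =>
          obtain ⟨m, x, i, hm, hx, hi, hki, rfl⟩ := hz
          obtain ⟨c, hc⟩ := hm.hom
          have hmi := 𝔊.lie_mem hc hi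
          by_cases hcij : c + i = j
          · rw [hcij] at hmi
            rw [𝔊.proj_self hmi]
            by_cases hik : i.val = k + 1
            · have hij : i = j := ZMod.val_injective p (hik.trans hjv.symm)
              have hc0 : c = 0 := by rw [hij] at hcij; exact add_eq_right.mp hcij
              subst hc0
              rw [𝔊.eq_zero_of_mem_C_zero hc, zero_lie]
              exact zero_mem _
            · have hik' : k + 1 < i.val := by omega
              have hip := ZMod.val_lt i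
              have hcval : k + 1 < c.val := by
                have h0 : (c + i).val = j.val := by rw [hcij]
                rw [hjv, ZMod.val_add] at h0
                have hcp := ZMod.val_lt c
                by_cases h1 : c.val + i.val < p
                · rw [Nat.mod_eq_of_lt h1] at h0; omega
                · rw [Nat.mod_eq_sub_mod (by omega), Nat.mod_eq_of_lt (by omega)] at h0; omega
              exact subset_closure (Mon.lie (Mon.gen (hm.mem 𝔊 hU) hc hcval) hx hi hik')
          · rw [𝔊.proj_ne hmi hcij]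
            exact zero_mem _
        | zero => rw [map_zero]; exact zero_mem _
        | add a b _ _ ha hb => rw [map_add]; exact add_mem ha hb
        | neg a _ ha => rw [map_neg]; exact neg_mem ha
      have := key y (hN' hyN)
      rwa [𝔊.proj_self hj] at this
    intro m hm
    induction hm with
    | gen hx hi hk => exact hgood _ _ hx hi hk
    | lie _ hx hi hk ihm => exact 𝔊.high_closed _ ihm _ (hgood _ _ hx hi hk)

include 𝔊 in
/-- Kreknin: the derived length is at most `2 ^ (p - 1) - 1`. -/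
theorem kreknin : derived^[2 ^ (p - 1) - 1] (⊤ : AddSubgroup L) = ⊥ := by
  have hp1 := hp.out.one_lt
  rw [← steps_eq, eq_bot_iff]
  refine (𝔊.kreknin_step (p - 1) (by omega) ⊤ 𝔊.isGraded_top).trans ((closure_le _).mpr ?_)
  intro m hm
  induction hm with
  | @gen x i _ _ hk => exact absurd (ZMod.val_lt i) (by omega)
  | @lie m x i _ _ _ hk _ => exact absurd (ZMod.val_lt i) (by omega)

/-! ### Higman's bound -/

theorem lcs_hom_span (n : ℕ) : lcs L n ≤ closure {x | x ∈ lcs L n ∧ 𝔊.Hom x} := by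
  induction n with
  | zero =>
    intro x _
    refine closure_mono ?_ (𝔊.span x)
    exact fun y hy => ⟨mem_top y, hy⟩
  | succ n ih =>
    refine (closure_le _).mpr ?_
    rintro z ⟨x, hx, y, rfl⟩
    refine lie_mem_of_closure (S := {x | x ∈ lcs L n ∧ 𝔊.Hom x}) (T := {y | 𝔊.Hom y}) ?_
      (ih hx) (𝔊.span y)
    intro s hs t ht
    exact subset_closure ⟨lie_mem_lcs_succ hs.1 t, 𝔊.hom_lie hs.2 ht⟩

theorem derived_ideal (n : ℕ) :
    ∀ x ∈ derived^[n] (⊤ : AddSubgroup L), ∀ y : L, ⁅x, y⁆ ∈ derived^[n] (⊤ : AddSubgroup L) := by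
  induction n with
  | zero => exact fun _ _ _ => mem_top _
  | succ n ih =>
    intro x hx y
    rw [Function.iterate_succ_apply'] at hx ⊢
    refine lie_mem_of_closure (T := {y}) ?_ hx (subset_closure rfl)
    rintro - ⟨a, ha, b, hb, rfl⟩ y' hy'
    rw [Set.mem_singleton_iff.mp hy', lie_lie]
    refine sub_mem (lie_mem_derived ha (ih b hb y)) ?_
    rw [← lie_skew]
    exact neg_mem (lie_mem_derived (ih a ha y) hb)

/-- An entry: element, weight, degree. -/
def Valid (e : L × ℕ × ZMod p) : Prop := e.1 ∈ 𝔊.C e.2.2 ∧ 1 ≤ e.2.1 ∧ e.1 ∈ lcs L (e.2.1 - 1)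

/-- Iterated bracket with the entries of a list. -/
def fold (a : L) (l : List (L × ℕ × ZMod p)) : L := l.foldl (fun b e => ⁅b, e.1⁆) a

omit hp in
theorem fold_mem {W : AddSubgroup L} (hW : ∀ x ∈ W, ∀ y, ⁅x, y⁆ ∈ W) (l : List (L × ℕ × ZMod p)) :
    ∀ a ∈ W, fold a l ∈ W := by
  induction l with
  | nil => exact fun a ha => ha
  | cons e l ih => exact fun a ha => ih _ (hW a ha e.1)

omit hp in
theorem fold_add (l : List (L × ℕ × ZMod p)) : ∀ a b : L, fold (a + b) l = fold a l + fold b l := by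
  induction l with
  | nil => exact fun a b => rfl
  | cons e l ih =>
    intro a b
    show fold ⁅a + b, e.1⁆ l = fold ⁅a, e.1⁆ l + fold ⁅b, e.1⁆ l
    rw [add_lie, ih]

omit hp in
theorem fold_append (a : L) (l₁ l₂ : List (L × ℕ × ZMod p)) :
    fold a (l₁ ++ l₂) = fold (fold a l₁) l₂ := List.foldl_append ..

theorem fold_degree (l : List (L × ℕ × ZMod p)) : ∀ (a : L) (d : ZMod p), a ∈ 𝔊.C d →
    (∀ e ∈ l, 𝔊.Valid e) → fold a l ∈ 𝔊.C (d + (l.map fun e => e.2.2).sum) := by
  induction l with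
  | nil => intro a d ha _; simpa [fold] using ha
  | cons e l ih =>
    intro a d ha hl
    rw [List.map_cons, List.sum_cons, ← add_assoc]
    exact ih _ _ (𝔊.lie_mem ha (hl e (List.mem_cons_self ..)).1)
      fun e' he' => hl e' (List.mem_cons_of_mem _ he')

include hp in
/-- In a list of at least `p - 1` non-zero residues every residue is the sum of a sublist. -/
theorem exists_sublist_sum {α : Type*} (f : α → ZMod p) : ∀ l : List α, (∀ e ∈ l, f e ≠ 0) →
    ∃ S : Finset (ZMod p), min p (l.length + 1) ≤ S.card ∧ 0 ∈ S ∧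
      ∀ t ∈ S, ∃ l₁ : List α, l₁.Sublist l ∧ (l₁.map f).sum = t := by
  classical
  intro l
  induction l with
  | nil => exact fun _ => ⟨{0}, by simp, by simp, fun t ht => ⟨[], List.Sublist.refl _, by
      rw [Finset.mem_singleton] at ht; simp [ht]⟩⟩
  | cons e l ih =>
    intro hl
    obtain ⟨S, hS, h0, hSl⟩ := ih fun e' he' => hl e' (List.mem_cons_of_mem _ he')
    refine ⟨S ∪ S.image (f e + ·), ?_, Finset.mem_union_left _ h0, ?_⟩
    · by_cases hsub : S.image (f e + ·) ⊆ S
      · have hmul : ∀ n : ℕ, (n : ZMod p) * f e ∈ S := by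
          intro n
          induction n with
          | zero => simpa using h0
          | succ n ihn =>
            have := hsub (Finset.mem_image_of_mem (f e + ·) ihn)
            rw [Nat.cast_succ, add_mul, one_mul, add_comm]
            exact this
        have huniv : S = Finset.univ := Finset.eq_univ_of_forall fun t => by
          obtain ⟨u, hu⟩ : ∃ u, u * f e = t :=
            ⟨t / f e, div_mul_cancel₀ t (hl e (List.mem_cons_self ..))⟩
          have h1 := hmul u.val
          rwa [ZMod.natCast_zmod_val, hu] at h1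
        refine le_trans ?_ (Finset.card_le_card Finset.subset_union_left)
        rw [huniv, Finset.card_univ, ZMod.card]
        exact min_le_left _ _
      · have hlt : S.card < (S ∪ S.image (f e + ·)).card := Finset.card_lt_card
          (Finset.ssubset_iff_subset_ne.mpr ⟨Finset.subset_union_left, fun h => hsub
            (Finset.subset_union_right.trans h.ge)⟩)
        have : min p ((e :: l).length + 1) ≤ S.card + 1 := by
          rw [List.length_cons]; omega
        omega
    · intro t ht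
      rcases Finset.mem_union.mp ht with h | h
      · obtain ⟨l₁, h1, h2⟩ := hSl t h
        exact ⟨l₁, List.Sublist.cons e h1, h2⟩
      · obtain ⟨t', ht', rfl⟩ := Finset.mem_image.mp h
        obtain ⟨l₁, h1, h2⟩ := hSl t' ht'
        exact ⟨e :: l₁, List.Sublist.cons_cons e h1, by rw [List.map_cons, List.sum_cons, h2]⟩

variable {c m : ℕ} {A B : AddSubgroup L}

/-- Products of operators of large total weight send `A` into `B`. -/
theorem fold_mem_of_weight (hB : ∀ x ∈ B, ∀ y, ⁅x, y⁆ ∈ B) (hA : ∀ x ∈ A, ∀ y, ⁅x, y⁆ ∈ A)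
    (hAB : ∀ x ∈ A, ∀ y ∈ A, ⁅x, y⁆ ∈ B) (hcA : lcs L c ≤ A) (hm : (p - 2) * c < m) :
    ∀ (r : ℕ) (l : List (L × ℕ × ZMod p)), l.length = r → (∀ e ∈ l, 𝔊.Valid e) →
      m ≤ (l.map fun e => e.2.1).sum → ∀ (a : L) (d : ZMod p), a ∈ A → a ∈ 𝔊.C d →
      fold a l ∈ B := by
  intro r
  induction r using Nat.strong_induction_on with
  | _ r ih =>
    intro l hlr hval hsum a d ha hd
    by_cases hbig : ∃ e ∈ l, c < e.2.1
    · obtain ⟨e, he, hce⟩ := hbig
      obtain ⟨l₁, l₂, rfl⟩ := List.append_of_mem he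
      rw [fold_append]
      refine fold_mem hB l₂ _ ?_
      exact hAB _ (fold_mem hA l₁ a ha) _
        (hcA (lcs_le_of_le (by omega) (hval e he).2.2))
    · have hlen : ∀ l' : List (L × ℕ × ZMod p), (∀ e ∈ l', e.2.1 ≤ c) →
          (l'.map fun e => e.2.1).sum ≤ l'.length * c := by
        intro l'
        induction l' with
        | nil => simp
        | cons e l' ihl =>
          intro h
          have h1 := h e (List.mem_cons_self ..)
          have h2 := ihl fun e' he' => h e' (List.mem_cons_of_mem _ he')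
          rw [List.map_cons, List.sum_cons, List.length_cons, Nat.succ_mul]
          omega
      simp only [not_exists, not_and, not_lt] at hbig
      have hlp : p - 1 ≤ l.length := by
        have h1 := hlen l hbig
        by_contra h
        have h2 : l.length * c ≤ (p - 2) * c := Nat.mul_le_mul_right _ (by omega)
        omega
      -- swapping neighbours does not matter
      have hswap : ∀ l' l'', List.Perm l' l'' → ∀ pre : List (L × ℕ × ZMod p),
          List.Perm (pre ++ l') l → fold a (pre ++ l') - fold a (pre ++ l'') ∈ B := by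
        intro l' l'' hperm
        induction hperm with
        | nil => intro pre _; rw [sub_self]; exact zero_mem _
        | cons e _ ihp =>
          intro pre hpre
          have := ihp (pre ++ [e]) (by simpa using hpre)
          simpa using this
        | swap e e' t =>
          intro pre hpre
          have hmem : ∀ x, x ∈ pre ++ e' :: e :: t → x ∈ l := fun x hx => hpre.subset hx
          have he := hval e (hmem e (by simp))
          have he' := hval e' (hmem e' (by simp))
          have h1 : fold a (pre ++ e' :: e :: t) - fold a (pre ++ e :: e' :: t) =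
              fold a (pre ++ (⁅e'.1, e.1⁆, e'.2.1 + e.2.1, e'.2.2 + e.2.2) :: t) := by
            rw [fold_append, fold_append, fold_append, sub_eq_iff_eq_add]
            show fold ⁅⁅fold a pre, e'.1⁆, e.1⁆ t =
              fold ⁅fold a pre, ⁅e'.1, e.1⁆⁆ t + fold ⁅⁅fold a pre, e.1⁆, e'.1⁆ t
            rw [← fold_add]
            congr 1
            rw [lie_lie (fold a pre) e'.1 e.1, ← lie_skew ⁅fold a pre, e.1⁆ e'.1]
            abel
          rw [h1]
          refine ih _ ?_ (pre ++ (⁅e'.1, e.1⁆, e'.2.1 + e.2.1, e'.2.2 + e.2.2) :: t) rfl ?_ ?_ a d ha hd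
          · have := hpre.length_eq
            simp at this ⊢
            omega
          · intro x hx
            rw [List.mem_append, List.mem_cons] at hx
            rcases hx with hx | rfl | hx
            · exact hval x (hmem x (by simp [hx]))
            · have w1 : 1 ≤ e.2.1 := he.2.1
              have w2 : 1 ≤ e'.2.1 := he'.2.1
              refine ⟨𝔊.lie_mem he'.1 he.1, Nat.le_add_right_of_le w2, ?_⟩
              have := lie_lcs _ _ _ _ he'.2.2 he.2.2
              rwa [show e'.2.1 - 1 + (e.2.1 - 1) + 1 = e'.2.1 + e.2.1 - 1 by omega] at this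
            · exact hval x (hmem x (by simp [hx]))
          · refine hsum.trans (le_of_eq ?_)
            rw [← (hpre.map fun e => e.2.1).sum_eq]
            simp [List.sum_append]
            omega
        | trans h₁₂ _ ih₁ ih₂ =>
          intro pre hpre
          have h2 := ih₂ pre ((h₁₂.symm.append_left pre).trans hpre)
          have := add_mem (ih₁ pre hpre) h2
          rwa [sub_add_sub_cancel] at this
      by_cases hzero : ∃ e ∈ l, e.2.2 = 0
      · obtain ⟨e, he, he0⟩ := hzero
        obtain ⟨l₁, l₂, rfl⟩ := List.append_of_mem he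
        rw [fold_append]
        refine fold_mem hB l₂ _ ?_
        have : e.1 = 0 := 𝔊.eq_zero_of_mem_C_zero (he0 ▸ (hval e he).1)
        show ⁅fold a l₁, e.1⁆ ∈ B
        rw [this, lie_zero]
        exact zero_mem _
      · simp only [not_exists, not_and] at hzero
        obtain ⟨S, hScard, -, hS⟩ := exists_sublist_sum (fun e : L × ℕ × ZMod p => e.2.2) l hzero
        have hSu : S = Finset.univ := Finset.eq_univ_of_card _ (by
          rw [ZMod.card]
          have := S.card_le_univ
          rw [ZMod.card] at this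
          omega)
        obtain ⟨l₁, hsub, hl₁⟩ := hS (-d) (hSu ▸ Finset.mem_univ _)
        obtain ⟨l₂, hperm⟩ := List.Sublist.exists_perm_append hsub
        have h1 := hswap l (l₁ ++ l₂) hperm [] (List.Perm.refl _)
        have h2 : fold a (l₁ ++ l₂) ∈ B := by
          rw [fold_append]
          refine fold_mem hB l₂ _ ?_
          have h3 := 𝔊.fold_degree l₁ a d hd fun e he => hval e (hsub.subset he)
          rw [hl₁, add_neg_cancel] at h3
          rw [𝔊.eq_zero_of_mem_C_zero h3]
          exact zero_mem _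
        have := add_mem h1 h2
        simpa using this

theorem lcs_add_span (c : ℕ) : ∀ m, lcs L (c + m) ≤ closure {z | ∃ (a : L) (d : ZMod p)
    (l : List (L × ℕ × ZMod p)), a ∈ lcs L c ∧ a ∈ 𝔊.C d ∧ (∀ e ∈ l, 𝔊.Valid e) ∧
      m ≤ (l.map fun e => e.2.1).sum ∧ fold a l = z} := by
  intro m
  induction m with
  | zero =>
    refine (𝔊.lcs_hom_span c).trans ((closure_le _).mpr ?_)
    rintro x ⟨hx, d, hd⟩
    exact subset_closure ⟨x, d, [], hx, hd, by simp, by simp, rfl⟩
  | succ m ih =>
    refine (closure_le _).mpr ?_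
    rintro z ⟨x, hx, y, rfl⟩
    refine lie_mem_of_closure (T := {y | 𝔊.Hom y}) ?_ (ih hx) (𝔊.span y)
    rintro - ⟨a, d, l, ha, hd, hl, hs, rfl⟩ t ⟨i, hi⟩
    refine subset_closure ⟨a, d, l ++ [(t, 1, i)], ha, hd, ?_, ?_, ?_⟩
    · intro e he
      rw [List.mem_append, List.mem_singleton] at he
      rcases he with he | rfl
      · exact hl e he
      · exact ⟨hi, le_rfl, mem_top t⟩
    · simp [List.sum_append]; omega
    · rw [fold_append]; rfl

include 𝔊 in
/-- Higman: the class is bounded by the derived length. -/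
theorem lcs_le_derived : ∀ s : ℕ,
    lcs L (∑ i ∈ Finset.range s, (p - 1) ^ i) ≤ derived^[s] (⊤ : AddSubgroup L) := by
  intro s
  induction s with
  | zero => simp
  | succ s ih =>
    set c := ∑ i ∈ Finset.range s, (p - 1) ^ i with hc
    have hcs : ∑ i ∈ Finset.range (s + 1), (p - 1) ^ i = c + ((p - 2) * c + 1) := by
      rw [Finset.sum_range_succ', pow_zero]
      simp only [pow_succ]
      rw [← Finset.sum_mul, ← hc]
      have h2 := hp.out.two_le
      obtain ⟨q, rfl⟩ : ∃ q, p = q + 2 := ⟨p - 2, by omega⟩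
      simp only [Nat.add_sub_cancel, show q + 2 - 1 = q + 1 by omega]
      ring
    rw [hcs]
    refine (𝔊.lcs_add_span c _).trans ((closure_le _).mpr ?_)
    rintro z ⟨a, d, l, ha, hd, hl, hs, rfl⟩
    refine 𝔊.fold_mem_of_weight (B := derived^[s + 1] ⊤) (A := derived^[s] ⊤) (c := c)
      (derived_ideal (s + 1)) (derived_ideal s) ?_ ih (Nat.lt_succ_self _) _ l rfl hl hs a d
      (ih ha) hd
    intro x hx y hy
    rw [Function.iterate_succ_apply']
    exact lie_mem_derived hx hy

include 𝔊 in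
/-- The Higman–Kreknin–Kostrikin bound. -/
theorem lcs_eq_bot : lcs L (∑ i ∈ Finset.range (2 ^ (p - 1) - 1), (p - 1) ^ i) = ⊥ :=
  eq_bot_iff.mpr ((𝔊.lcs_le_derived _).trans 𝔊.kreknin.le)

/-- For `p = 3` the class is at most two. -/
theorem lcs_two_eq_bot {L : Type*} [LieRing L] (𝔊 : Grading 3 L) : lcs L 2 = ⊥ := by
  rw [eq_bot_iff]
  refine (𝔊.lcs_hom_span 2).trans ((closure_le _).mpr ?_)
  rintro z ⟨hz, -⟩
  -- triple brackets of homogeneous elements vanish
  have hdeg : ∀ {i : ZMod 3} {x : L}, x ∈ 𝔊.C i → i = 0 → x = 0 := fun hx h =>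
    𝔊.eq_zero_of_mem_C_zero (h ▸ hx)
  have h2 : lcs L 1 ≤ closure {z | ∃ (x y : L) (i j : ZMod 3), x ∈ 𝔊.C i ∧ y ∈ 𝔊.C j ∧ ⁅x, y⁆ = z} := by
    refine (closure_le _).mpr ?_
    rintro z ⟨x, -, y, rfl⟩
    exact lie_mem_of_closure (S := {y | 𝔊.Hom y}) (T := {y | 𝔊.Hom y})
      (by rintro s ⟨i, hi⟩ t ⟨j, hj⟩; exact subset_closure ⟨s, t, i, j, hi, hj, rfl⟩) (𝔊.span x) (𝔊.span y)
  have key : ∀ (a b c : L) (i j k : ZMod 3), a ∈ 𝔊.C i → b ∈ 𝔊.C j → c ∈ 𝔊.C k →
      ⁅⁅a, b⁆, c⁆ = 0 := by
    intro a b c i j k ha hb hc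
    have e : ∀ {x y : L} {u v : ZMod 3}, x ∈ 𝔊.C u → y ∈ 𝔊.C v → u + v = 0 → ⁅x, y⁆ = 0 :=
      fun hx hy h => hdeg (𝔊.lie_mem hx hy) h
    by_cases hi : i = 0
    · rw [hdeg ha hi, zero_lie, zero_lie]
    by_cases hj : j = 0
    · rw [hdeg hb hj, lie_zero, zero_lie]
    by_cases hk : k = 0
    · rw [hdeg hc hk, lie_zero]
    have hd : ∀ u v : ZMod 3, u ≠ 0 → v ≠ 0 → u + v = 0 ∨ u = v := by decide
    rcases hd i j hi hj with hij | hij
    · rw [e ha hb hij, zero_lie]
    rcases hd i k hi hk with hik | hik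
    · rw [lie_lie, e hb hc (by rw [← hij]; exact hik), e ha hc hik, lie_zero, lie_zero, sub_zero]
    · refine hdeg (𝔊.lie_mem (𝔊.lie_mem ha hb) hc) ?_
      rw [← hij, ← hik, ← two_mul, ← add_one_mul]
      have h3 : ((2 : ZMod 3) + 1) = 0 := by decide
      rw [h3, zero_mul]
  have h3 : ∀ x ∈ lcs L 1, ∀ y : L, ⁅x, y⁆ ∈ (⊥ : AddSubgroup L) := fun x hx y => by
    refine lie_mem_of_closure ?_ (h2 hx) (𝔊.span y)
    rintro - ⟨a, b, i, j, ha, hb, rfl⟩ c ⟨k, hc⟩
    exact key a b c i j k ha hb hc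
  refine (closure_le _).mpr ?_ hz
  rintro w ⟨x, hx, y, rfl⟩
  exact h3 x hx y

end Grading

end Cfsg.Agent.PGroup.Kreknin
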