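import Cfsg.Agent.PGroup.Kreknin
import Mathlib.Algebra.Lie.BaseChange
import Mathlib.RingTheory.AdjoinRoot
import Mathlib.RingTheory.Polynomial.Cyclotomic.Basic
import Mathlib.LinearAlgebra.TensorProduct.Basic

/-!
Lie rings with an automorphism of prime order without non-trivial fixed points: extension of
scalars by a root of unity gives a grading.
-/

set_option linter.style.haveILetI false

open scoped TensorProduct

namespace Cfsg.Agent.PGroup.Kreknin

variable {p : ℕ} [hp : Fact p.Prime]

/-- The ring of `p`-th cyclotomic integers. -/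
abbrev CycInt (p : ℕ) : Type := AdjoinRoot (Polynomial.cyclotomic p ℤ)

/-- Powers of the root of unity indexed by residues. -/
noncomputable def zeta (k : ZMod p) : CycInt p := AdjoinRoot.root (Polynomial.cyclotomic p ℤ) ^ k.val

theorem root_geom_sum :
    ∑ i ∈ Finset.range p, AdjoinRoot.root (Polynomial.cyclotomic p ℤ) ^ i = 0 := by
  have h : AdjoinRoot.mk (Polynomial.cyclotomic p ℤ) (∑ i ∈ Finset.range p, Polynomial.X ^ i) = 0 := by
    rw [← Polynomial.cyclotomic_prime ℤ p]
    exact AdjoinRoot.mk_self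
  simpa [map_sum, AdjoinRoot.mk_X] using h

theorem root_pow_p : AdjoinRoot.root (Polynomial.cyclotomic p ℤ) ^ p = 1 := by
  have h := geom_sum_mul (AdjoinRoot.root (Polynomial.cyclotomic p ℤ)) p
  rw [root_geom_sum, zero_mul] at h
  exact sub_eq_zero.mp h.symm

theorem zeta_zero : zeta (0 : ZMod p) = 1 := by simp [zeta]

theorem zeta_add (a b : ZMod p) : zeta (a + b) = zeta a * zeta b := by
  rw [zeta, zeta, zeta, ← pow_add]
  conv_rhs => rw [← Nat.mod_add_div (a.val + b.val) p, pow_add, pow_mul, root_pow_p, one_pow, mul_one]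
  rw [ZMod.val_add]

theorem zeta_sum : ∑ k : ZMod p, zeta k = 0 := by
  refine Eq.trans ?_ (root_geom_sum (p := p))
  refine Finset.sum_nbij (fun k => k.val) (fun k _ => Finset.mem_range.mpr (ZMod.val_lt k))
    (fun a _ b _ h => ZMod.val_injective p h) ?_ (fun k _ => rfl)
  intro i hi
  exact ⟨(i : ZMod p), Finset.mem_coe.mpr (Finset.mem_univ _),
    ZMod.val_natCast_of_lt (Finset.mem_range.mp hi)⟩

theorem zeta_mul_sum {j : ZMod p} (hj : j ≠ 0) : ∑ k : ZMod p, zeta (j * k) = 0 := by
  refine Eq.trans ?_ (zeta_sum (p := p))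
  exact Fintype.sum_bijective (fun k => j * k)
    ⟨mul_right_injective₀ hj, fun t => ⟨j⁻¹ * t, by simp [hj]⟩⟩ _ _ fun _ => rfl

/-- Data: a Lie ring of exponent prime to `p` with an automorphism of order `p` and vanishing
trace. -/
structure TraceZero (p N : ℕ) (L : Type*) [LieRing L] where
  α : L →+ L
  lie : ∀ x y, α ⁅x, y⁆ = ⁅α x, α y⁆
  order : ∀ x, α^[p] x = x
  trace : ∀ x, ∑ i ∈ Finset.range p, α^[i] x = 0
  torsion : ∀ x : L, N • x = 0
  coprime : N.Coprime p

variable {N : ℕ} {L : Type*} [LieRing L] (D : TraceZero p N L)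

variable (p L) in
/-- The extension of scalars. -/
abbrev Ext := CycInt p ⊗[ℤ] L

/-- The extended automorphism. -/
noncomputable def TraceZero.T : Ext p L →ₗ[CycInt p] Ext p L :=
  D.α.toIntLinearMap.baseChange (CycInt p)

theorem TraceZero.T_tmul (a : CycInt p) (x : L) : D.T (a ⊗ₜ x) = a ⊗ₜ D.α x := rfl

theorem TraceZero.T_iterate_tmul (n : ℕ) (a : CycInt p) (x : L) :
    D.T^[n] (a ⊗ₜ x) = a ⊗ₜ D.α^[n] x := by
  induction n with
  | zero => rfl
  | succ n ih => rw [Function.iterate_succ_apply', ih, D.T_tmul, Function.iterate_succ_apply']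

theorem TraceZero.T_lie (x y : Ext p L) : D.T ⁅x, y⁆ = ⁅D.T x, D.T y⁆ := by
  induction x using TensorProduct.induction_on with
  | zero => simp only [zero_lie, map_zero]
  | tmul a u =>
    induction y using TensorProduct.induction_on with
    | zero =>
      refine (congrArg D.T (lie_zero (a ⊗ₜ[ℤ] u : Ext p L))).trans ?_
      rw [map_zero]
      exact (lie_zero (M := Ext p L) (L := Ext p L) _).symm
    | tmul b v => rw [LieAlgebra.ExtendScalars.bracket_tmul, D.T_tmul, D.lie, D.T_tmul, D.T_tmul,
        LieAlgebra.ExtendScalars.bracket_tmul]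
    | add v w hv hw =>
      refine (congrArg D.T (lie_add (a ⊗ₜ[ℤ] u : Ext p L) v w)).trans ?_
      rw [map_add, hv, hw, map_add]
      exact (lie_add (D.T (a ⊗ₜ[ℤ] u) : Ext p L) (D.T v) (D.T w)).symm
  | add u w hu hw => simp only [add_lie, map_add, hu, hw]

theorem TraceZero.T_add (n : ℕ) (x y : Ext p L) : D.T^[n] (x + y) = D.T^[n] x + D.T^[n] y :=
  iterate_map_add D.T n x y

theorem TraceZero.T_smul (n : ℕ) (a : CycInt p) (x : Ext p L) : D.T^[n] (a • x) = a • D.T^[n] x := by
  induction n with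
  | zero => rfl
  | succ n ih => rw [Function.iterate_succ_apply', ih, map_smul, Function.iterate_succ_apply']

theorem TraceZero.T_order (x : Ext p L) : D.T^[p] x = x := by
  induction x using TensorProduct.induction_on with
  | zero => exact iterate_map_zero D.T p
  | tmul a u => rw [D.T_iterate_tmul, D.order]
  | add u w hu hw => rw [D.T_add, hu, hw]

theorem TraceZero.T_trace (x : Ext p L) : ∑ i ∈ Finset.range p, D.T^[i] x = 0 := by
  induction x using TensorProduct.induction_on with
  | zero => exact Finset.sum_eq_zero fun i _ => iterate_map_zero D.T i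
  | tmul a u =>
    simp only [D.T_iterate_tmul]
    rw [← TensorProduct.tmul_sum, D.trace, TensorProduct.tmul_zero]
  | add u w hu hw => simp only [D.T_add, Finset.sum_add_distrib, hu, hw, add_zero]

include D in
theorem TraceZero.ext_torsion (x : Ext p L) : N • x = 0 := by
  induction x using TensorProduct.induction_on with
  | zero => exact smul_zero _
  | tmul a u => rw [← TensorProduct.tmul_smul, D.torsion, TensorProduct.tmul_zero]
  | add u w hu hw => rw [smul_add, hu, hw, add_zero]

include D in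
theorem TraceZero.exists_inv : ∃ m : ℕ, ∀ x : Ext p L, m • p • x = x := by
  by_cases hN1 : N ≤ 1
  · refine ⟨0, fun x => ?_⟩
    have h0 := D.ext_torsion x
    rcases Nat.le_one_iff_eq_zero_or_eq_one.mp hN1 with h | h
    · exfalso
      have := D.coprime
      rw [h, Nat.coprime_zero_left] at this
      exact hp.out.ne_one this
    · rw [h, one_smul] at h0
      rw [zero_smul, h0]
  · obtain ⟨m, hm⟩ := Nat.exists_mul_mod_eq_one_of_coprime D.coprime.symm (by omega)
    refine ⟨m, fun x => ?_⟩
    rw [smul_smul]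
    have h1 : m * p = N * (p * m / N) + 1 := by
      rw [mul_comm m p]
      conv_lhs => rw [← Nat.div_add_mod (p * m) N, hm.2]
    rw [h1, add_smul, one_smul, mul_comm N, mul_smul, D.ext_torsion, smul_zero, zero_add]

/-- Iterates indexed by residues. -/
noncomputable def TraceZero.Tp (k : ZMod p) (x : Ext p L) : Ext p L := D.T^[k.val] x

theorem TraceZero.Tp_succ (k : ZMod p) (x : Ext p L) : D.Tp (k + 1) x = D.T (D.Tp k x) := by
  rw [TraceZero.Tp, TraceZero.Tp, ← Function.iterate_succ_apply' D.T]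
  have h1 : (k + 1).val = (k.val + 1) % p := by
    rw [ZMod.val_add, ZMod.val_one]
  rw [h1]
  have hlt := ZMod.val_lt k
  by_cases h : k.val + 1 < p
  · rw [Nat.mod_eq_of_lt h]
  · rw [show k.val + 1 = p by omega, Nat.mod_self, Nat.succ_eq_add_one,
      show k.val + 1 = p by omega, D.T_order, Function.iterate_zero_apply]

/-- The unnormalised projection. -/
noncomputable def TraceZero.proj (j : ZMod p) : Ext p L →+ Ext p L where
  toFun x := ∑ i : ZMod p, zeta (-(i * j)) • D.Tp i x
  map_zero' := Finset.sum_eq_zero fun i _ => by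
    rw [TraceZero.Tp, iterate_map_zero, smul_zero]
  map_add' x y := by
    rw [← Finset.sum_add_distrib]
    exact Finset.sum_congr rfl fun i _ => by rw [TraceZero.Tp, D.T_add, smul_add]; rfl

theorem TraceZero.T_proj (j : ZMod p) (x : Ext p L) : D.T (D.proj j x) = zeta j • D.proj j x := by
  show D.T (∑ i : ZMod p, zeta (-(i * j)) • D.Tp i x) = zeta j • ∑ i : ZMod p, zeta (-(i * j)) • D.Tp i x
  rw [map_sum, Finset.smul_sum]
  refine Fintype.sum_bijective (· + 1) (Equiv.addRight (1 : ZMod p)).bijective _ _ fun i => ?_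
  rw [map_smul, smul_smul, ← zeta_add, ← D.Tp_succ]
  congr 2
  ring

theorem TraceZero.Tp_eigen {j : ZMod p} {x : Ext p L} (hx : D.T x = zeta j • x) (i : ZMod p) :
    D.Tp i x = zeta (i * j) • x := by
  have h : ∀ n : ℕ, D.T^[n] x = zeta ((n : ZMod p) * j) • x := by
    intro n
    induction n with
    | zero => rw [Function.iterate_zero_apply, Nat.cast_zero, zero_mul, zeta_zero, one_smul]
    | succ n ih =>
      rw [Function.iterate_succ_apply', ih, map_smul, hx, smul_smul, ← zeta_add]
      congr 2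
      push_cast
      ring
  rw [TraceZero.Tp, h, ZMod.natCast_zmod_val]

include D in
theorem TraceZero.exists_grading : Nonempty (Grading p (Ext p L)) := by
  obtain ⟨m, hm⟩ := D.exists_inv
  refine ⟨
    { C := fun j =>
        { carrier := {x | D.T x = zeta j • x}
          zero_mem' := by show D.T 0 = zeta j • (0 : Ext p L); rw [map_zero, smul_zero]
          add_mem' := fun {x y} hx hy => by
            show D.T (x + y) = zeta j • (x + y)
            rw [map_add, smul_add, (hx : D.T x = zeta j • x), (hy : D.T y = zeta j • y)]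
          neg_mem' := fun {x} hx => by
            show D.T (-x) = zeta j • (-x)
            rw [map_neg, smul_neg, (hx : D.T x = zeta j • x)] }
      P := fun j => m • D.proj j
      lie_mem := ?_
      proj_self := ?_
      proj_ne := ?_
      span := ?_
      zero := ?_ }⟩
  · intro i j x y hx hy
    show D.T ⁅x, y⁆ = zeta (i + j) • ⁅x, y⁆
    rw [D.T_lie, (hx : D.T x = zeta i • x), (hy : D.T y = zeta j • y), zeta_add, mul_smul]
    exact (smul_lie (zeta i) x (zeta j • y)).trans (congrArg (zeta i • ·) (lie_smul (zeta j) x y))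
  · intro j x hx
    show m • ∑ i : ZMod p, zeta (-(i * j)) • D.Tp i x = x
    have h : ∀ i : ZMod p, zeta (-(i * j)) • D.Tp i x = x := fun i => by
      rw [D.Tp_eigen hx i, smul_smul, ← zeta_add, neg_add_cancel, zeta_zero, one_smul]
    rw [Finset.sum_congr rfl (fun i _ => h i), Finset.sum_const, Finset.card_univ, ZMod.card]
    exact hm x
  · intro i j x hx hji
    show m • ∑ k : ZMod p, zeta (-(k * i)) • D.Tp k x = 0
    have h : ∀ k : ZMod p, zeta (-(k * i)) • D.Tp k x = zeta ((j - i) * k) • x := fun k => by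
      rw [D.Tp_eigen hx k, smul_smul, ← zeta_add]
      congr 2
      ring
    rw [Finset.sum_congr rfl (fun k _ => h k), ← Finset.sum_smul,
      zeta_mul_sum (sub_ne_zero.mpr hji), zero_smul, smul_zero]
  · intro x
    have h : ∑ j : ZMod p, D.proj j x = p • x := by
      show ∑ j : ZMod p, ∑ i : ZMod p, zeta (-(i * j)) • D.Tp i x = p • x
      rw [Finset.sum_comm]
      have h1 : ∀ i : ZMod p, ∑ j : ZMod p, zeta (-(i * j)) • D.Tp i x =
          if i = 0 then p • x else 0 := fun i => by
        rw [← Finset.sum_smul]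
        split_ifs with hi
        · subst hi
          simp only [zero_mul, neg_zero, zeta_zero, Finset.sum_const, Finset.card_univ, ZMod.card,
            TraceZero.Tp, ZMod.val_zero, Function.iterate_zero_apply]
          rw [smul_assoc, one_smul]
        · rw [show (∑ j : ZMod p, zeta (-(i * j))) = ∑ j : ZMod p, zeta ((-i) * j) by
            simp only [neg_mul], zeta_mul_sum (neg_ne_zero.mpr hi), zero_smul]
      rw [Finset.sum_congr rfl (fun i _ => h1 i), Finset.sum_ite_eq' Finset.univ (0 : ZMod p),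
        if_pos (Finset.mem_univ _)]
    rw [← hm x, ← h]
    refine AddSubgroup.nsmul_mem _ (AddSubgroup.sum_mem _ fun j _ => ?_) m
    exact AddSubgroup.subset_closure ⟨j, D.T_proj j x⟩
  · rw [eq_bot_iff]
    intro x hx
    have h1 : D.T x = zeta (0 : ZMod p) • x := hx
    rw [zeta_zero, one_smul] at h1
    have h2 := D.T_trace x
    rw [Finset.sum_congr rfl (fun i _ => Function.iterate_fixed h1 i), Finset.sum_const,
      Finset.card_range] at h2
    have h3 := hm x
    rw [h2, smul_zero] at h3
    exact AddSubgroup.mem_bot.mpr h3.symm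

theorem one_tmul_mem_lcs : ∀ (n : ℕ) {x : L}, x ∈ lcs L n → ((1 : CycInt p) ⊗ₜ x) ∈ lcs (Ext p L) n := by
  intro n
  induction n with
  | zero => exact fun _ => AddSubgroup.mem_top _
  | succ n ih =>
    intro x hx
    refine AddSubgroup.closure_induction ?_ ?_ ?_ ?_ hx
    · rintro z ⟨u, hu, v, rfl⟩
      have h : (1 : CycInt p) ⊗ₜ[ℤ] ⁅u, v⁆ = ⁅(1 : CycInt p) ⊗ₜ[ℤ] u, (1 : CycInt p) ⊗ₜ[ℤ] v⁆ := by
        rw [LieAlgebra.ExtendScalars.bracket_tmul, mul_one]
      rw [h]
      exact lie_mem_lcs_succ (ih hu) _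
    · rw [TensorProduct.tmul_zero]; exact zero_mem _
    · intro a b _ _ ha hb; rw [TensorProduct.tmul_add]; exact add_mem ha hb
    · intro a _ ha; rw [TensorProduct.tmul_neg]; exact neg_mem ha

theorem one_tmul_eq_zero {x : L} (h : (1 : CycInt p) ⊗ₜ[ℤ] x = 0) : x = 0 := by
  have hmon := Polynomial.cyclotomic.monic p ℤ
  set pb := AdjoinRoot.powerBasis' hmon with hpb
  have hdim : 0 < pb.dim := by
    rw [hpb, AdjoinRoot.powerBasis'_dim, Polynomial.natDegree_cyclotomic]
    exact Nat.totient_pos.mpr hp.out.pos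
  let f : CycInt p →ₗ[ℤ] ℤ := pb.basis.coord ⟨0, hdim⟩
  have hf : f 1 = 1 := by
    have h1 : pb.basis ⟨0, hdim⟩ = (1 : CycInt p) := by rw [pb.basis_eq_pow, pow_zero]
    show pb.basis.repr 1 ⟨0, hdim⟩ = 1
    rw [← h1, pb.basis.repr_self, Finsupp.single_eq_same]
  let r : CycInt p ⊗[ℤ] L →ₗ[ℤ] L := TensorProduct.lift ((LinearMap.lsmul ℤ L).comp f)
  have h2 : r ((1 : CycInt p) ⊗ₜ[ℤ] x) = x := by
    show f 1 • x = x
    rw [hf, one_smul]
  rw [h, map_zero] at h2
  exact h2.symm

include D in
/-- The Higman–Kreknin–Kostrikin bound for Lie rings. -/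
theorem TraceZero.lcs_eq_bot :
    lcs L (∑ i ∈ Finset.range (2 ^ (p - 1) - 1), (p - 1) ^ i) = ⊥ := by
  obtain ⟨𝔊⟩ := D.exists_grading
  rw [eq_bot_iff]
  intro x hx
  have h := one_tmul_mem_lcs (p := p) _ hx
  rw [𝔊.lcs_eq_bot, AddSubgroup.mem_bot] at h
  exact AddSubgroup.mem_bot.mpr (one_tmul_eq_zero h)

/-- For `p = 3` the class is at most two. -/
theorem TraceZero.lcs_two_eq_bot {N : ℕ} {L : Type*} [LieRing L] (D : TraceZero 3 N L) :
    lcs L 2 = ⊥ := by
  haveI : Fact (Nat.Prime 3) := ⟨Nat.prime_three⟩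
  obtain ⟨𝔊⟩ := D.exists_grading
  rw [eq_bot_iff]
  intro x hx
  have h := one_tmul_mem_lcs (p := 3) _ hx
  rw [Grading.lcs_two_eq_bot 𝔊, AddSubgroup.mem_bot] at h
  exact AddSubgroup.mem_bot.mpr (one_tmul_eq_zero h)

end Cfsg.Agent.PGroup.Kreknin
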