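import Cfsg.Agent.PGroup.FormGroupType
import Cfsg.Agent.LargeExtra.Large

/-!
Lemmas for split extensions of a 2-group by a general linear group over the field with two elements.
-/

set_option autoImplicit false

namespace Cfsg.Agent.SplitLinear

open Cfsg Matrix

variable {n : ℕ}

theorem zmod2_unit {a : ZMod 2} (h : IsUnit a) : a = 1 := by
  revert h
  revert a
  decide

theorem zmod2_eq_one {a : ZMod 2} (h : a ≠ 0) : a = 1 := by
  revert h
  revert a
  decide

theorem exists_GL_mulVec {v w : Fin n → ZMod 2} (hv : v ≠ 0) (hw : w ≠ 0) :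
    ∃ T : GL (Fin n) (ZMod 2), (T : Matrix (Fin n) (Fin n) (ZMod 2)) *ᵥ v = w := by
  obtain ⟨f, hfv, hfw⟩ : ∃ f : Fin n → ZMod 2, f ⬝ᵥ v = 1 ∧ f ⬝ᵥ w = 1 := by
    by_cases h : ∃ i, v i ≠ 0 ∧ w i ≠ 0
    · obtain ⟨i, h1, h2⟩ := h
      exact ⟨Pi.single i 1, by rw [single_dotProduct, one_mul, zmod2_eq_one h1],
        by rw [single_dotProduct, one_mul, zmod2_eq_one h2]⟩
    · push Not at h
      obtain ⟨i, hi⟩ := Function.ne_iff.1 hv
      obtain ⟨j, hj⟩ := Function.ne_iff.1 hw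
      have hij : w i = 0 := h i hi
      have hji : v j = 0 := by
        by_contra h'
        exact hj (h j h')
      exact ⟨Pi.single i 1 + Pi.single j 1,
        by simp [add_dotProduct, zmod2_eq_one hi, hji],
        by simp [add_dotProduct, zmod2_eq_one hj, hij]⟩
  set d := w + v with hd
  set N : Matrix (Fin n) (Fin n) (ZMod 2) := vecMulVec d f with hN
  have hfd : f ⬝ᵥ d = 0 := by rw [hd, dotProduct_add, hfv, hfw]; decide
  have hNN : N * N = 0 := by rw [hN, vecMulVec_mul_vecMulVec, hfd, zero_smul, vecMulVec_zero]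
  have hsq : (1 + N) * (1 + N) = 1 := by
    rw [mul_add, add_mul, add_mul, hNN, one_mul, mul_one, one_mul, add_zero, add_assoc]
    have : N + N = 0 := by
      ext i j
      exact CharTwo.add_self_eq_zero _
    rw [this, add_zero]
  refine ⟨⟨1 + N, 1 + N, hsq, hsq⟩, ?_⟩
  show (1 + N) *ᵥ v = w
  rw [add_mulVec, one_mulVec, hN, vecMulVec_mulVec, hfv]
  funext i
  simp [hd]
  linear_combination CharTwo.add_self_eq_zero (v i)

/-- The general linear group over the field with two elements has no non-trivial normal 2-subgroup. -/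
theorem normal_two_eq_bot {N : Subgroup (GL (Fin n) (ZMod 2))} (hn : N.Normal) (hN : IsPGroup 2 N) : N = ⊥ := by
  haveI : Fact (Nat.Prime 2) := ⟨Nat.prime_two⟩
  by_cases h0 : n = 0
  · subst h0
    exact (Subgroup.eq_bot_iff_forall _).2 fun g _ => Units.ext (Matrix.ext fun i => i.elim0)
  letI act : MulAction ↥N (Fin n → ZMod 2) :=
    { smul := fun g v => ((g : GL (Fin n) (ZMod 2)) : Matrix (Fin n) (Fin n) (ZMod 2)) *ᵥ v
      one_smul := fun v => one_mulVec v
      mul_smul := fun g h v => (mulVec_mulVec v _ _).symm }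
  have hdvd : 2 ∣ Nat.card (Fin n → ZMod 2) := by
    rw [Nat.card_fun, Nat.card_zmod, Nat.card_fin]
    exact dvd_pow_self 2 h0
  obtain ⟨v, hv, hv0⟩ := hN.exists_fixed_point_of_prime_dvd_card_of_fixed_point (Fin n → ZMod 2) hdvd
    (a := (0 : Fin n → ZMod 2)) (fun g => mulVec_zero _)
  refine (Subgroup.eq_bot_iff_forall _).2 fun g hg => Units.ext (Matrix.toLin'.injective (LinearMap.ext fun w => ?_))
  rw [Matrix.toLin'_apply, Matrix.toLin'_apply, Units.val_one, one_mulVec]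
  by_cases hw : w = 0
  · rw [hw, mulVec_zero]
  · obtain ⟨T, hT⟩ := exists_GL_mulVec hv0.symm hw
    have h1 : ((T⁻¹ * g * T : GL (Fin n) (ZMod 2)) : Matrix (Fin n) (Fin n) (ZMod 2)) *ᵥ v = v := by
      have hm : T⁻¹ * g * T ∈ N := by simpa using hn.conj_mem g hg T⁻¹
      exact hv ⟨_, hm⟩
    have h2 := congrArg ((T : Matrix (Fin n) (Fin n) (ZMod 2)) *ᵥ ·) h1
    simp only [mulVec_mulVec, ← Units.val_mul, ← mul_assoc, mul_inv_cancel, one_mul] at h2
    rwa [Units.val_mul, ← mulVec_mulVec, hT] at h2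

/-- A centraliser that is a split extension of a 2-group by a group without normal 2-subgroups. -/
theorem pCore_of_split {G H : Type*} [Group G] [Finite G] [Group H] {C Q0 : Subgroup G} (θ : H →* G)
    (hθ : Function.Injective θ) (hθC : θ.range ≤ C) (hQC : Q0 ≤ C) (hQ : IsPGroup 2 ↥Q0)
    (hn : C ≤ Subgroup.normalizer (Q0 : Set G)) (hsplit : ∀ c ∈ C, ∃ q ∈ Q0, ∃ h, c = q * θ h)
    (hmeet : ∀ h, θ h ∈ Q0 → h = 1) (hH : ∀ N : Subgroup H, N.Normal → IsPGroup 2 N → N = ⊥) :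
    (pCore 2 ↥C).map C.subtype = Q0 ∧ θ.range ≤ C ∧ Q0 ⊓ θ.range = ⊥ ∧ Q0 ⊔ θ.range = C ∧
      Nonempty (↥θ.range ≃* H) := by
  have hle : Q0 ≤ (pCore 2 ↥C).map C.subtype := by
    intro q hq
    exact ⟨⟨q, hQC hq⟩, Cores.le_pCore (Subgroup.normal_subgroupOf_of_le_normalizer hn) hQ.comap_subtype
      (show (⟨q, hQC hq⟩ : ↥C) ∈ Q0.subgroupOf C from hq), rfl⟩
  refine ⟨le_antisymm ?_ hle, hθC, ?_, ?_, ⟨(MonoidHom.ofInjective hθ).symm⟩⟩
  · set P := (pCore 2 ↥C).map C.subtype with hP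
    have hPp : IsPGroup 2 ↥P := (Cores.pCore_isPGroup (G := ↥C)).map _
    have hNn : (P.comap θ).Normal := ⟨fun x hx h => by
      have := (Subgroup.mem_normalizer_iff.1 (LargeExtra.normalizes_pCore_map 2 (hθC ⟨h, rfl⟩)) (θ x)).1 hx
      show θ (h * x * h⁻¹) ∈ P
      rw [map_mul, map_mul, map_inv]
      exact this⟩
    have hN := hH _ hNn (hPp.comap_of_injective θ hθ)
    intro x hx
    obtain ⟨q, hq, h, rfl⟩ := hsplit x (Subgroup.map_subtype_le _ hx)
    have : h ∈ P.comap θ := by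
      have := mul_mem (inv_mem (hle hq)) hx
      rwa [inv_mul_cancel_left] at this
    rw [hN, Subgroup.mem_bot] at this
    rw [this, map_one, mul_one]
    exact hq
  · refine (Subgroup.eq_bot_iff_forall _).2 ?_
    rintro x ⟨hx, h, rfl⟩
    rw [hmeet h hx, map_one]
  · refine le_antisymm (sup_le hQC hθC) fun c hc => ?_
    obtain ⟨q, hq, h, rfl⟩ := hsplit c hc
    exact Subgroup.mul_mem_sup hq ⟨h, rfl⟩

open FormGroup in
/-- The plus model embedded in a group: the standard consequences. -/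
theorem plus_image {G : Type*} [Group G] (n : ℕ) (hn : 1 ≤ n) (φ : EB (plusMat n) →* G) (hφ : Function.Injective φ) :
    IsExtraspecial 2 ↥φ.range ∧ Nat.card ↥φ.range = 2 ^ (2 * n + 1) ∧
      (∃ E : Subgroup G, E ≤ φ.range ∧ IsElementaryAbelian 2 E ∧ Nat.card ↥E = 2 ^ (n + 1)) := by
  haveI : Finite ↥φ.range := Finite.of_equiv _ (MonoidHom.ofInjective hφ).toEquiv
  refine ⟨LargeExtra.isExtraspecial_map_equiv (plus_model n hn) (MonoidHom.ofInjective hφ), ?_, ?_⟩
  · rw [← Nat.card_congr (MonoidHom.ofInjective hφ).toEquiv, card_plus_eq]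
  · obtain ⟨A, hA, hc⟩ := elemAb_plus n
    refine ⟨A.map φ, Subgroup.map_le_range _ _, ⟨⟨⟨fun x y => Subtype.ext ?_⟩⟩, ?_⟩, ?_⟩
    · obtain ⟨x, a, ha, rfl⟩ := x
      obtain ⟨y, b, hb, rfl⟩ := y
      show φ a * φ b = φ b * φ a
      rw [← map_mul, ← map_mul]
      exact congrArg φ (congrArg Subtype.val (hA.1.is_comm.comm ⟨a, ha⟩ ⟨b, hb⟩))
    · rintro _ ⟨a, ha, rfl⟩
      rw [← map_pow, hA.2 a ha, map_one]
    · rw [← Nat.card_congr (A.equivMapOfInjective φ hφ).toEquiv, hc]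

end Cfsg.Agent.SplitLinear
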