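import Mathlib.Tactic.Group
import Mathlib.Tactic.LinearCombination
import Mathlib.Tactic.Linarith
import Cfsg.Agent.PGroup.Critical
import Cfsg.Agent.PGroup.Extraspecial
import Cfsg.Agent.PGroup.ClassTwo

/-!
`p`-groups all of whose characteristic abelian subgroups are cyclic (Philip Hall).
-/

set_option linter.style.haveILetI false

open scoped commutatorElement
open Subgroup

namespace Cfsg.Agent.PGroup.Symp

variable {P : Type*} [Group P] [Finite P] {p : ℕ} [Fact p.Prime]

omit [Finite P] [Fact p.Prime] in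
theorem char_zpowers_pow {u : P} (h : (zpowers u).Characteristic) (k : ℕ) :
    (zpowers (u ^ k)).Characteristic := by
  rw [characteristic_iff_map_le]
  intro φ
  rintro - ⟨x, hx, rfl⟩
  obtain ⟨j, rfl⟩ := mem_zpowers_iff.mp hx
  have hu : φ u ∈ zpowers u :=
    (characteristic_iff_map_le.mp h φ) ⟨u, mem_zpowers u, rfl⟩
  obtain ⟨i, hi⟩ := mem_zpowers_iff.mp hu
  refine ⟨i * j, ?_⟩
  show (u ^ k) ^ (i * j) = φ ((u ^ k) ^ j)
  rw [map_zpow, map_pow, ← hi, ← zpow_natCast, ← zpow_natCast, ← zpow_mul, ← zpow_mul, ← zpow_mul]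
  congr 1
  ring

/-- Torsion in a cyclic group. -/
theorem mem_zpowers_of_pow_eq_one {u v : P} {n : ℕ} (hn : 1 ≤ n) (hu : orderOf u = p ^ n)
    (hv : v ∈ zpowers u) (hvp : v ^ p = 1) : v ∈ zpowers (u ^ p ^ (n - 1)) := by
  obtain ⟨i, rfl⟩ := mem_zpowers_iff.mp hv
  rw [← zpow_natCast, ← zpow_mul, ← orderOf_dvd_iff_zpow_eq_one, hu, Nat.cast_pow,
    show n = (n - 1) + 1 by omega, pow_succ] at hvp
  obtain ⟨k, rfl⟩ := Int.dvd_of_mul_dvd_mul_right
    (by exact_mod_cast (Fact.out : p.Prime).ne_zero) hvp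
  refine ⟨k, ?_⟩
  show (u ^ p ^ (n - 1)) ^ k = _
  rw [← zpow_natCast, ← zpow_mul, Nat.cast_pow]

theorem orderOf_top_pow {u : P} {n : ℕ} (hn : 1 ≤ n) (hu : orderOf u = p ^ n) :
    orderOf (u ^ p ^ (n - 1)) = p := by
  have hp := (Fact.out : p.Prime)
  refine orderOf_eq_prime ?_ fun h => ?_
  · rw [← pow_mul, ← pow_succ, show n - 1 + 1 = n by omega, ← hu, pow_orderOf_eq_one]
  · have h1 := orderOf_dvd_of_pow_eq_one h
    rw [hu, Nat.pow_dvd_pow_iff_le_right hp.one_lt] at h1
    omega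

omit [Finite P] [Fact p.Prime] in
/-- Power formula inside a subgroup in which commutators are central. -/
theorem mul_pow_within (H : Subgroup P) {x y : P} (hx : x ∈ H) (hy : y ∈ H)
    (hc : ∀ h ∈ H, Commute h ⁅y, x⁆) (n : ℕ) :
    (x * y) ^ n = x ^ n * y ^ n * ⁅y, x⁆ ^ n.choose 2 :=
  congrArg Subtype.val (mul_pow_of_commutatorElement (x := (⟨x, hx⟩ : H)) (y := ⟨y, hy⟩)
    (mem_center_iff.mpr fun g => Subtype.ext (hc g g.2).eq) n)

/-- In a characteristic subgroup of class two with cyclic centre of order at least `p ^ 2`, all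
`p`-th powers are `p`-th powers in the centre, when every characteristic abelian subgroup is
cyclic. -/
theorem powers_mem (hP : IsPGroup p P)
    (hs : ∀ A : Subgroup P, A.Characteristic → IsMulCommutative A → IsCyclic A)
    (H : Subgroup P) [hH : H.Characteristic] {u : P} {m : ℕ} (hu : orderOf u = p ^ m) (hm : 2 ≤ m)
    (hZ : ∀ x, x ∈ zpowers u ↔ x ∈ H ∧ ∀ h ∈ H, Commute x h)
    (hcomm : ∀ x ∈ H, ∀ y ∈ H, ⁅x, y⁆ ∈ zpowers (u ^ p ^ (m - 1)))
    (hpow : ∀ x ∈ H, x ^ p ∈ zpowers u) : ∀ x ∈ H, x ^ p ∈ zpowers (u ^ p) := by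
  classical
  have hp := (Fact.out : p.Prime)
  set z := u ^ p ^ (m - 1) with hz
  set V := zpowers (u ^ p) with hV
  set Zu := zpowers u with hZudef
  have huH : u ∈ H := ((hZ u).mp (mem_zpowers u)).1
  have hZchar : Zu.Characteristic := by
    rw [characteristic_iff_map_le]
    intro φ
    rintro - ⟨x, hx, rfl⟩
    obtain ⟨h1, h2⟩ := (hZ x).mp hx
    refine (hZ _).mpr ⟨(characteristic_iff_map_le.mp hH φ) ⟨x, h1, rfl⟩, fun h hh => ?_⟩
    have h' : φ.symm h ∈ H := (characteristic_iff_map_le.mp hH φ.symm) ⟨h, hh, rfl⟩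
    have := (h2 _ h').map φ.toMonoidHom
    simpa using this
  have hVchar : V.Characteristic := char_zpowers_pow hZchar p
  have hVle : V ≤ Zu := zpowers_le.mpr (pow_mem (mem_zpowers u) p)
  have hzV : zpowers z ≤ V := zpowers_le.mpr ⟨(p : ℤ) ^ (m - 2), by
    show (u ^ p) ^ ((p : ℤ) ^ (m - 2)) = z
    rw [← zpow_natCast, ← zpow_mul, hz, ← zpow_natCast, Nat.cast_pow, ← pow_succ']
    congr 2; omega⟩
  have hzz : zpowers z ≤ Zu := hzV.trans hVle
  have hcen : ∀ x ∈ Zu, ∀ h ∈ H, Commute h x := fun x hx h hh => (((hZ x).mp hx).2 h hh).symm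
  have hform : ∀ x ∈ H, ∀ y ∈ H, (x * y) ^ p = x ^ p * y ^ p * ⁅y, x⁆ ^ p.choose 2 :=
    fun x hx y hy => mul_pow_within H hx hy (hcen _ (hzz (hcomm y hy x hx))) p
  let K : Subgroup P :=
    { carrier := {x | x ∈ H ∧ x ^ p ∈ V}
      one_mem' := ⟨one_mem _, by rw [one_pow]; exact one_mem _⟩
      mul_mem' := fun {x y} hx hy => ⟨mul_mem hx.1 hy.1, by
        rw [hform x hx.1 y hy.1]
        exact mul_mem (mul_mem hx.2 hy.2) (pow_mem (hzV (hcomm y hy.1 x hx.1)) _)⟩
      inv_mem' := fun {x} hx => ⟨inv_mem hx.1, by rw [inv_pow]; exact inv_mem hx.2⟩ }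
  intro x₀ hx₀
  by_contra hx₀V
  have hKH : K < H := lt_of_le_of_ne (fun x hx => hx.1) fun h => hx₀V (h.ge hx₀).2
  have hZK : Zu ≤ K := fun x hx => by
    obtain ⟨i, rfl⟩ := mem_zpowers_iff.mp hx
    refine ⟨zpow_mem huH i, i, ?_⟩
    show (u ^ p) ^ i = (u ^ i) ^ p
    rw [← zpow_natCast, ← zpow_natCast, ← zpow_mul, ← zpow_mul, mul_comm]
  -- centralisers of subgroups above the centre
  have hpdvd : ∀ X Y : Subgroup P, X < Y → p * Nat.card X ≤ Nat.card Y := by
    intro X Y hXY
    obtain ⟨a, ha⟩ := IsPGroup.iff_card.mp (hP.to_subgroup X)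
    obtain ⟨b, hb⟩ := IsPGroup.iff_card.mp (hP.to_subgroup Y)
    have hlt : Nat.card X < Nat.card Y := by
      refine lt_of_le_of_ne (card_le_of_le hXY.le) fun h => hXY.ne ?_
      exact eq_of_le_of_card_ge hXY.le h.ge
    rw [ha, hb] at hlt ⊢
    rw [← pow_succ']
    exact Nat.pow_le_pow_right hp.pos (by
      have := (Nat.pow_lt_pow_iff_right hp.one_lt).mp hlt; omega)
  have hone : ∀ x ∈ H, (centralizer ({x} : Set P)).relIndex H ≤ p := by
    intro x hx
    let f : H →* zpowers z :=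
      { toFun := fun h => ⟨⁅(h : P), x⁆, hcomm _ h.2 x hx⟩
        map_one' := Subtype.ext (by simp)
        map_mul' := fun a b => Subtype.ext (by
          show ⁅(a : P) * b, x⁆ = ⁅(a : P), x⁆ * ⁅(b : P), x⁆
          have h1 := (hcen _ (hzz (hcomm _ b.2 x hx)) _ a.2).eq
          have h2 := (hcen _ (hzz (hcomm _ b.2 x hx)) _ (Subgroup.mem_carrier.mpr
            ((hZ _).mp (hzz (hcomm _ a.2 x hx))).1)).eq
          calc ⁅(a : P) * b, x⁆ = (a : P) * ⁅(b : P), x⁆ * (a : P)⁻¹ * ⁅(a : P), x⁆ := by group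
            _ = ⁅(b : P), x⁆ * ⁅(a : P), x⁆ := by rw [h1, mul_inv_cancel_right]
            _ = ⁅(a : P), x⁆ * ⁅(b : P), x⁆ := h2.symm) }
    have hker : f.ker = (centralizer ({x} : Set P)).subgroupOf H := by
      ext h
      rw [MonoidHom.mem_ker, mem_subgroupOf, mem_centralizer_singleton_iff,
        ← commutatorElement_eq_one_iff_mul_comm, ← Subtype.coe_inj]
      rfl
    rw [relIndex, ← hker, index_ker]
    refine (card_le_card_group _).trans ?_
    rw [Nat.card_zpowers, hz, orderOf_top_pow (by omega) hu]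
  have hcount : ∀ S : Finset P, (∀ x ∈ S, x ∈ H) →
      Nat.card H * Nat.card Zu ≤
        Nat.card ↥(H ⊓ centralizer ((S : Set P) ∪ (Zu : Set P))) *
          Nat.card ↥(closure ((S : Set P) ∪ (Zu : Set P))) := by
    intro S
    induction S using Finset.induction_on with
    | empty =>
      intro _
      have hle : H ≤ centralizer (((∅ : Finset P) : Set P) ∪ (Zu : Set P)) := fun h hh => by
        rw [mem_centralizer_iff]
        intro y hy
        simp only [Finset.coe_empty, Set.empty_union, SetLike.mem_coe] at hy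
        exact (hcen y hy h hh).eq.symm
      rw [inf_eq_left.mpr hle, Finset.coe_empty, Set.empty_union, closure_eq]
    | insert a S ha ih =>
      intro hS
      have hS' : ∀ x ∈ S, x ∈ H := fun x hx => hS x (Finset.mem_insert_of_mem hx)
      have haH := hS a (Finset.mem_insert_self a S)
      have h0 := ih hS'
      set X := (S : Set P) ∪ (Zu : Set P)
      have hins : ((insert a S : Finset P) : Set P) ∪ (Zu : Set P) = insert a X := by
        simp [X, Set.insert_union]
      rw [hins]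
      by_cases haX : a ∈ closure X
      · have h1 : closure (insert a X) = closure X := le_antisymm
          ((closure_le _).mpr (Set.insert_subset haX subset_closure))
          (closure_mono (Set.subset_insert a X))
        rw [← centralizer_closure (insert a X), h1, centralizer_closure]
        exact h0
      · have h1 : closure X < closure (insert a X) :=
          lt_of_le_of_ne (closure_mono (Set.subset_insert a X))
            fun h => haX (h ▸ subset_closure (Set.mem_insert a X))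
        have h2 := hpdvd _ _ h1
        have h3 : H ⊓ centralizer (insert a X) = H ⊓ centralizer X ⊓ centralizer {a} := by
          ext h
          simp only [mem_inf, mem_centralizer_iff, Set.mem_insert_iff, Set.mem_singleton_iff,
            forall_eq_or_imp, forall_eq]
          tauto
        have h4 : Nat.card ↥(H ⊓ centralizer X) ≤ Nat.card ↥(H ⊓ centralizer (insert a X)) * p := by
          rw [h3, ← relIndex_bot_left, ← relIndex_bot_left]
          rw [← relIndex_mul_relIndex ⊥ (H ⊓ centralizer X ⊓ centralizer {a}) (H ⊓ centralizer X)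
            bot_le inf_le_left]
          refine Nat.mul_le_mul_left _ ?_
          rw [inf_relIndex_left]
          refine le_trans ?_ (hone a haH)
          exact relIndex_le_of_le_right inf_le_left Subgroup.index_ne_zero_of_finite
        calc Nat.card H * Nat.card Zu ≤ _ := h0
          _ ≤ Nat.card ↥(H ⊓ centralizer (insert a X)) * p * Nat.card ↥(closure X) :=
            Nat.mul_le_mul_right _ h4
          _ = Nat.card ↥(H ⊓ centralizer (insert a X)) * (p * Nat.card ↥(closure X)) := by ring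
          _ ≤ _ := Nat.mul_le_mul_left _ h2
  haveI : Fintype P := Fintype.ofFinite P
  have hC := hcount (Finset.univ.filter fun x => x ∈ K) fun x hx =>
    (Finset.mem_filter.mp hx).2.1
  have hSK : ((Finset.univ.filter fun x => x ∈ K : Finset P) : Set P) ∪ (Zu : Set P) = (K : Set P) := by
    ext x
    simp only [Finset.coe_filter, Finset.mem_univ, true_and, Set.mem_union, Set.mem_setOf_eq,
      SetLike.mem_coe]
    exact ⟨fun h => h.elim id (@hZK x), Or.inl⟩
  rw [hSK, closure_eq] at hC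
  obtain ⟨r, hr, hrZ⟩ : ∃ r ∈ H ⊓ centralizer (K : Set P), r ∉ Zu := by
    by_contra hcon
    simp only [not_exists, not_and, not_not] at hcon
    have h1 := Nat.mul_le_mul_right (Nat.card K) (card_le_of_le (show _ ≤ Zu from hcon))
    have h2 := hpdvd K H hKH
    have h3 : 0 < Nat.card K := Nat.card_pos
    have h4 : 0 < Nat.card Zu := Nat.card_pos
    have h5 : Nat.card H ≤ Nat.card K := by
      have := hC.trans h1
      rw [mul_comm (Nat.card Zu)] at this
      exact Nat.le_of_mul_le_mul_right this h4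
    have := hp.two_le
    nlinarith
  have hrH : r ∈ H := hr.1
  have hrK : r ∈ K := by
    by_contra hrK
    refine hrZ ((hZ r).mpr ⟨hr.1, fun h hh => ?_⟩)
    obtain ⟨i, hi⟩ := mem_zpowers_iff.mp (hpow r hr.1)
    obtain ⟨j, hj⟩ := mem_zpowers_iff.mp (hpow h hh)
    have hpi : ¬ (p : ℤ) ∣ i := by
      rintro ⟨k, rfl⟩
      refine hrK ⟨hr.1, k, ?_⟩
      show (u ^ p) ^ k = r ^ p
      rw [← hi, zpow_mul, zpow_natCast]
    obtain ⟨s, t, hst⟩ := ((Nat.prime_iff_prime_int.mp hp).coprime_iff_not_dvd).mpr hpi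
    -- `h * r ^ (-(j t))` lies in `K`
    have hk : r ^ (-(j * t)) * h ∈ K := by
      refine ⟨mul_mem (zpow_mem hrH _) hh, ?_⟩
      rw [hform _ (zpow_mem hrH _) h hh]
      refine mul_mem ?_ (pow_mem (hzV (hcomm _ hh _ (zpow_mem hrH _))) _)
      refine ⟨j * s, ?_⟩
      show (u ^ p) ^ (j * s) = _
      rw [← zpow_natCast (r ^ (-(j * t))), ← zpow_mul, mul_comm (-(j * t)), zpow_mul r, zpow_natCast r, ← hi,
        ← hj, ← zpow_natCast u, ← zpow_mul, ← zpow_mul, ← zpow_add]
      congr 1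
      linear_combination j * hst
    have h1 : Commute r (r ^ (-(j * t)) * h) := (mem_centralizer_iff.mp hr.2 _ hk).symm
    have h2 := ((Commute.refl r).zpow_right (j * t)).mul_right h1
    rwa [← mul_assoc, zpow_neg, mul_inv_cancel, one_mul] at h2
  -- the centre of `K` is a characteristic abelian subgroup
  haveI hKchar : K.Characteristic := by
    rw [characteristic_iff_map_le]
    intro φ
    rintro - ⟨x, hx, rfl⟩
    refine ⟨(characteristic_iff_map_le.mp hH φ) ⟨x, hx.1, rfl⟩, ?_⟩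
    exact (characteristic_iff_map_le.mp hVchar φ) ⟨x ^ p, hx.2, map_pow _ _ _⟩
  have hA : IsCyclic ↥(K ⊓ centralizer (K : Set P)) := hs _ inferInstance
    ⟨⟨fun a b => Subtype.ext (mem_centralizer_iff.mp b.2.2 a a.2.1)⟩⟩
  obtain ⟨s, hs'⟩ := (Subgroup.isCyclic_iff_exists_zpowers_eq_top _).mp hA
  have hsA : s ∈ K ⊓ centralizer (K : Set P) := hs' ▸ mem_zpowers s
  have hrA : r ∈ zpowers s := hs'.symm ▸ (⟨hrK, hr.2⟩ : r ∈ K ⊓ centralizer (K : Set P))
  have huA : u ∈ zpowers s := hs'.symm ▸ (⟨hZK (mem_zpowers u),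
    mem_centralizer_iff.mpr fun k hk => (hcen u (mem_zpowers u) k hk.1).eq⟩ :
      u ∈ K ⊓ centralizer (K : Set P))
  obtain ⟨a, ha⟩ := mem_zpowers_iff.mp huA
  obtain ⟨c, hc⟩ := mem_zpowers_iff.mp (hsA.1.2)
  have hpa : (p : ℤ) ∣ a := by
    by_contra hpa
    refine hrZ ?_
    suffices hs2 : s ∈ Zu by
      obtain ⟨i, rfl⟩ := mem_zpowers_iff.mp hrA
      exact zpow_mem hs2 i
    obtain ⟨e, f, hef⟩ := ((Nat.prime_iff_prime_int.mp hp).coprime_iff_not_dvd).mpr hpa
    have h1 : s = (s ^ p) ^ e * (s ^ a) ^ f := by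
      rw [← zpow_natCast, ← zpow_mul, ← zpow_mul, ← zpow_add,
        show (p : ℤ) * e + a * f = 1 by linear_combination hef, zpow_one]
    rw [h1, ha]
    exact mul_mem (zpow_mem (hVle hsA.1.2) e) (zpow_mem (mem_zpowers u) f)
  obtain ⟨a', rfl⟩ := hpa
  have h1 : u = u ^ ((p : ℤ) * (c * a')) := by
    conv_lhs => rw [← ha, zpow_mul, zpow_natCast, ← hc]
    rw [← zpow_mul, ← zpow_natCast, ← zpow_mul]
  have h2 : ((orderOf u : ℕ) : ℤ) ∣ (p : ℤ) * (c * a') - 1 := by
    rw [orderOf_dvd_iff_zpow_eq_one, zpow_sub, ← h1, zpow_one, mul_inv_cancel]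
  rw [hu, Nat.cast_pow] at h2
  have h3 : (p : ℤ) ∣ (p : ℤ) * (c * a') - 1 := (dvd_pow_self _ (by omega)).trans h2
  have h4 : (p : ℤ) ∣ 1 := by
    have := dvd_sub (dvd_mul_right (p : ℤ) (c * a')) h3
    rwa [sub_sub_cancel] at this
  exact (Nat.prime_iff_prime_int.mp hp).not_dvd_one h4

/-- The decomposition of a `p`-group of symplectic type: `P = E R` with `E` trivial or extraspecial,
`R = C(E)`, containing a cyclic characteristic subgroup of `P` that is self-centralising in `R`. -/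
theorem exists_decomposition (hP : IsPGroup p P)
    (hs : ∀ A : Subgroup P, A.Characteristic → IsMulCommutative A → IsCyclic A) :
    ∃ (E : Subgroup P) (u : P), (E = ⊥ ∨ Cfsg.IsExtraspecial p E) ∧
      (zpowers u).Characteristic ∧ E.Normal ∧
      E ⊔ centralizer (E : Set P) = ⊤ ∧
      centralizer (E : Set P) ⊓ centralizer ({u} : Set P) = zpowers u ∧
      (∀ e ∈ E, Commute e u) ∧ (∀ g : P, ∀ e ∈ E, ∀ n, 1 ≤ n → orderOf u = p ^ n →
        ⁅g, e⁆ ∈ zpowers (u ^ p ^ (n - 1))) ∧
      (∀ e ∈ E, ∀ n, 1 ≤ n → orderOf u = p ^ n → e ^ p ∈ zpowers (u ^ p ^ (n - 1))) := by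
  classical
  have hp := (Fact.out : p.Prime)
  obtain ⟨C, hC⟩ := exists_isCriticalSubgroup hP
  haveI := hC.characteristic
  have hZ0 : C ⊓ centralizer (C : Set P) = centralizer (C : Set P) :=
    inf_eq_right.mpr hC.centralizer_le
  have hcyc : IsCyclic ↥(centralizer (C : Set P)) := hs _ inferInstance
    ⟨⟨fun a b => Subtype.ext (mem_centralizer_iff.mp b.2 a (hC.centralizer_le a.2))⟩⟩
  obtain ⟨u, hu⟩ := (Subgroup.isCyclic_iff_exists_zpowers_eq_top _).mp hcyc
  have huchar : (zpowers u).Characteristic := by rw [hu]; infer_instance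
  have hZ : ∀ x, x ∈ zpowers u ↔ x ∈ C ∧ ∀ h ∈ C, Commute x h := by
    intro x
    rw [hu]
    exact ⟨fun hx => ⟨hC.centralizer_le hx, fun h hh => (mem_centralizer_iff.mp hx h hh).symm⟩,
      fun hx => mem_centralizer_iff.mpr fun h hh => (hx.2 h hh).eq.symm⟩
  have huC : u ∈ C := ((hZ u).mp (mem_zpowers u)).1
  have hcu : ∀ c ∈ C, Commute c u := fun c hc => (((hZ u).mp (mem_zpowers u)).2 c hc).symm
  obtain ⟨n, hn⟩ : ∃ n, orderOf u = p ^ n := by
    obtain ⟨n, hn⟩ := IsPGroup.iff_card.mp (hP.to_subgroup (zpowers u))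
    exact ⟨n, by rw [← hn, Nat.card_zpowers]⟩
  have hnuniq : ∀ n', orderOf u = p ^ n' → n' = n := fun n' h =>
    Nat.pow_right_injective hp.two_le (h.symm.trans hn)
  by_cases hn0 : n = 0
  · have hu1 : u = 1 := orderOf_eq_one_iff.mp (by rw [hn, hn0, pow_zero])
    refine ⟨⊥, u, Or.inl rfl, huchar, inferInstance, ?_, ?_, ?_, ?_, ?_⟩
    · rw [bot_sup_eq, coe_bot, centralizer_eq_top_iff_subset]
      simp
    · have hCbot : C = ⊥ := by
        by_contra hne
        haveI := hC.normal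
        have hne' := inf_center_ne_bot hP C hne
        rw [Ne, eq_bot_iff_forall] at hne'
        push Not at hne'
        obtain ⟨x, hx, hx1⟩ := hne'
        have := (hZ x).mpr ⟨hx.1, fun h _ => (mem_center_iff.mp hx.2 h).symm⟩
        rw [hu1, zpowers_one_eq_bot, mem_bot] at this
        exact hx1 this
      have htop : centralizer (C : Set P) = ⊤ := by
        rw [hCbot, coe_bot, centralizer_eq_top_iff_subset]; simp
      have hle : ∀ x : P, x = 1 := fun x => by
        have h := hC.centralizer_le (htop ▸ mem_top x)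
        rwa [hCbot, mem_bot] at h
      ext x
      rw [hle x]
      simp
    · exact fun e he => by rw [mem_bot.mp he]; exact Commute.one_left u
    · exact fun g e _ n' h1 h2 => absurd ((hnuniq n' h2).trans hn0) (by omega)
    · exact fun e _ n' h1 h2 => absurd ((hnuniq n' h2).trans hn0) (by omega)
  set z := u ^ p ^ (n - 1) with hzdef
  have hzo : orderOf z = p := orderOf_top_pow (by omega) hn
  have hzu : zpowers z ≤ zpowers u := zpowers_le.mpr (pow_mem (mem_zpowers u) _)
  haveI hzchar : (zpowers z).Characteristic := char_zpowers_pow huchar _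
  have hzcen : zpowers z ≤ center P := le_center_of_card_eq hP (by rw [Nat.card_zpowers, hzo])
  have hzc : ∀ c ∈ zpowers z, ∀ g : P, Commute g c := fun c hc g =>
    mem_center_iff.mp (hzcen hc) g
  have hCu : ∀ g : P, ∀ x ∈ C, ⁅g, x⁆ ∈ zpowers u := fun g x hx => by
    rw [hu, ← commutatorElement_inv]
    exact inv_mem (hC.commutator_le (commutator_mem_commutator hx (mem_top g)))
  have hCp : ∀ x ∈ C, x ^ p ∈ zpowers u := fun x hx => hu ▸ hC.pow_mem x hx
  have hCC : ∀ x ∈ C, ∀ y ∈ C, ⁅x, y⁆ ∈ zpowers z := by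
    intro x hx y hy
    refine mem_zpowers_of_pow_eq_one (by omega) hn (hCu x y hy) ?_
    have h1 : Commute ⁅x, y⁆ y := ((hZ _).mp (hCu x y hy)).2 y hy
    have h2 : x * y * x⁻¹ = ⁅x, y⁆ * y := by group
    have h3 := congrArg (· ^ p) h2
    simp only [conj_pow, h1.mul_pow] at h3
    rw [((hZ _).mp (hCp y hy)).2 x hx |>.symm.eq, mul_inv_cancel_right] at h3
    exact mul_eq_right.mp h3.symm
  -- `T`: the elements with `p`-th power in `⟨z⟩`
  have hformC : ∀ x ∈ C, ∀ y ∈ C, (x * y) ^ p = x ^ p * y ^ p * ⁅y, x⁆ ^ p.choose 2 :=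
    fun x hx y hy => mul_pow_within C hx hy (fun h _ => hzc _ (hCC y hy x hx) h) p
  let T : Subgroup P :=
    { carrier := {x | x ∈ C ∧ x ^ p ∈ zpowers z}
      one_mem' := ⟨one_mem _, by rw [one_pow]; exact one_mem _⟩
      mul_mem' := fun {x y} hx hy => ⟨mul_mem hx.1 hy.1, by
        rw [hformC x hx.1 y hy.1]
        exact mul_mem (mul_mem hx.2 hy.2) (pow_mem (hCC y hy.1 x hx.1) _)⟩
      inv_mem' := fun {x} hx => ⟨inv_mem hx.1, by rw [inv_pow]; exact inv_mem hx.2⟩ }
  have hTcomm : ∀ g : P, ∀ x ∈ T, ⁅g, x⁆ ∈ zpowers z := by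
    intro g x hx
    refine mem_zpowers_of_pow_eq_one (by omega) hn (hCu g x hx.1) ?_
    have h1 : Commute ⁅g, x⁆ x := ((hZ _).mp (hCu g x hx.1)).2 x hx.1
    have h2 : g * x * g⁻¹ = ⁅g, x⁆ * x := by group
    have h3 := congrArg (· ^ p) h2
    simp only [conj_pow, h1.mul_pow] at h3
    rw [(hzc _ hx.2 g).eq, mul_inv_cancel_right] at h3
    exact mul_eq_right.mp h3.symm
  have hzT : zpowers z ≤ T := fun x hx =>
    ⟨((hZ x).mp (hzu hx)).1, pow_mem hx p⟩
  have hCT : ∀ x ∈ C, ∃ t ∈ T, ∃ v ∈ zpowers u, x = t * v := by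
    intro x hx
    by_cases h1 : n = 1
    · refine ⟨x, ⟨hx, ?_⟩, 1, one_mem _, (mul_one x).symm⟩
      have h := hCp x hx
      rwa [hzdef, h1, Nat.sub_self, pow_zero, pow_one]
    · have h2 := powers_mem hP hs C hn (by omega) hZ hCC hCp x hx
      obtain ⟨k, hk⟩ := mem_zpowers_iff.mp h2
      refine ⟨x * u ^ (-k), ⟨mul_mem hx (zpow_mem huC _), ?_⟩, u ^ k, zpow_mem (mem_zpowers u) k,
        by group⟩
      rw [((hcu x hx).zpow_right (-k)).mul_pow, ← hk, ← zpow_natCast (u ^ (-k)), ← zpow_mul,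
        ← zpow_natCast u, ← zpow_mul, ← zpow_add, show (p : ℤ) * k + -k * p = 0 by ring, zpow_zero]
      exact one_mem _
  have hnorm : ∀ D : Subgroup P, zpowers z ≤ D → D ≤ T → D.Normal := fun D hzD hDT =>
    ⟨fun x hx g => by
      rw [show g * x * g⁻¹ = ⁅g, x⁆ * x by group]
      exact mul_mem (hzD (hTcomm g x (hDT hx))) hx⟩
  obtain ⟨D, -, hDmax⟩ := Finite.exists_le_maximal
    (p := fun D : Subgroup P => zpowers z ≤ D ∧ D ≤ T ∧ D ⊓ zpowers u ≤ zpowers z)
    (a := zpowers z) ⟨le_rfl, hzT, inf_le_left⟩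
  obtain ⟨hzD, hDT, hDu⟩ := hDmax.prop
  haveI hDn : D.Normal := hnorm D hzD hDT
  have hTD : T ≤ D ⊔ zpowers u := by
    intro x hx
    by_contra hxn
    have hxD : x ∉ D := fun h => hxn (le_sup_left (b := zpowers u) h)
    have hle : D ⊔ zpowers x ≤ D := by
      refine hDmax.le_of_ge ⟨hzD.trans le_sup_left, sup_le hDT (zpowers_le.mpr hx), ?_⟩ le_sup_left
      rintro y ⟨hy, hyu⟩
      obtain ⟨d, hd, w, hw, rfl⟩ := mem_sup_of_normal_left.mp hy
      obtain ⟨i, rfl⟩ := mem_zpowers_iff.mp hw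
      by_cases hpi : (p : ℤ) ∣ i
      · obtain ⟨k, rfl⟩ := hpi
        refine hDu ⟨mul_mem hd ?_, hyu⟩
        rw [zpow_mul, zpow_natCast]
        exact zpow_mem (hzD hx.2) k
      · exfalso
        obtain ⟨a, b, hab⟩ := ((Nat.prime_iff_prime_int.mp hp).coprime_iff_not_dvd).mpr hpi
        refine hxn ?_
        have h1 : x ^ i ∈ D ⊔ zpowers u := by
          have h := mul_mem (inv_mem (le_sup_left (b := zpowers u) hd))
            (le_sup_right (a := D) hyu)
          rwa [inv_mul_cancel_left] at h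
        have h2 : x = (x ^ p) ^ a * (x ^ i) ^ b := by
          rw [← zpow_natCast, ← zpow_mul, ← zpow_mul, ← zpow_add,
            show (p : ℤ) * a + i * b = 1 by linear_combination hab, zpow_one]
        rw [h2]
        exact mul_mem (zpow_mem (le_sup_left (b := zpowers u) (hzD hx.2)) a) (zpow_mem h1 b)
    exact hxD (hle (le_sup_right (a := D) (mem_zpowers x)))
  have hCD : C ≤ D ⊔ zpowers u := fun x hx => by
    obtain ⟨t, ht, v, hv, rfl⟩ := hCT x hx
    exact mul_mem (hTD ht) (le_sup_right (a := D) hv)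
  have hDC : D ≤ C := fun x hx => (hDT hx).1
  have hcenD : ∀ x ∈ D, (∀ y ∈ D, Commute x y) → x ∈ zpowers z := by
    intro x hx hxy
    refine hDu ⟨hx, (hZ x).mpr ⟨hDC hx, fun h hh => ?_⟩⟩
    obtain ⟨d, hd, v, hv, rfl⟩ := mem_sup_of_normal_left.mp (hCD hh)
    exact (hxy d hd).mul_right (((hZ v).mp hv).2 x (hDC hx)).symm
  by_cases hDz : D = zpowers z
  · have hC_u : C ≤ zpowers u := fun x hx => by
      obtain ⟨d, hd, v, hv, rfl⟩ := mem_sup_of_normal_left.mp (hCD hx)
      exact mul_mem (hzu (hDz ▸ hd)) hv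
    refine ⟨⊥, u, Or.inl rfl, huchar, inferInstance, ?_, ?_, ?_, ?_, ?_⟩
    · rw [bot_sup_eq, coe_bot, centralizer_eq_top_iff_subset]
      simp
    · ext x
      constructor
      · rintro ⟨-, hx⟩
        rw [hu]
        refine mem_centralizer_iff.mpr fun c hc => ?_
        obtain ⟨i, rfl⟩ := mem_zpowers_iff.mp (hC_u hc)
        exact ((show Commute x u from mem_centralizer_singleton_iff.mp hx).zpow_right i).eq.symm
      · intro hx
        obtain ⟨i, rfl⟩ := mem_zpowers_iff.mp hx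
        exact ⟨mem_centralizer_iff.mpr fun c hc => by rw [mem_bot.mp hc]; simp,
          mem_centralizer_singleton_iff.mpr ((Commute.refl u).zpow_left i).eq⟩
    · exact fun e he => by rw [mem_bot.mp he]; exact Commute.one_left u
    · exact fun g e he _ _ _ => by
        rw [mem_bot.mp he, commutatorElement_one_right]; exact one_mem _
    · exact fun e he _ _ _ => by rw [mem_bot.mp he, one_pow]; exact one_mem _
  have hDna : ¬ IsMulCommutative D := fun h => hDz (le_antisymm (fun x hx => hcenD x hx fun y hy =>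
    congrArg Subtype.val (h.is_comm.comm ⟨x, hx⟩ ⟨y, hy⟩)) hzD)
  have hcD : center D = (zpowers z).subgroupOf D := by
    ext x
    rw [mem_center_iff, mem_subgroupOf]
    exact ⟨fun h => hcenD x x.2 fun y hy => (congrArg Subtype.val (h ⟨y, hy⟩)).symm,
      fun h y => Subtype.ext (hzc _ h _).eq⟩
  have hEx : Cfsg.IsExtraspecial p D := by
    refine isExtraspecial_of_center (hP.to_subgroup D) ?_ hDna ?_ fun x => ?_
    · rw [hcD, Nat.card_congr (subgroupOfEquivOfLe hzD).toEquiv, Nat.card_zpowers, hzo]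
    · rw [commutator_eq_closure, closure_le]
      rintro _ ⟨a, b, rfl⟩
      rw [hcD, SetLike.mem_coe, mem_subgroupOf]
      exact hTcomm a b (hDT b.2)
    · rw [hcD, mem_subgroupOf]
      exact (hDT x.2).2
  refine ⟨D, u, Or.inr hEx, huchar, hDn, ?_, ?_, fun e he => hcu e (hDC he),
    fun g e he n' _ h2 => by rw [hnuniq n' h2]; exact hTcomm g e (hDT he),
    fun e he n' _ h2 => by rw [hnuniq n' h2]; exact (hDT he).2⟩
  · refine eq_top_iff.mpr fun g _ => ?_
    obtain ⟨e, he⟩ := extraspecial_exists_conj hEx (MulAut.conjNormal g) fun x => by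
      rw [hcD, mem_subgroupOf]
      show (x : P)⁻¹ * (g * x * g⁻¹) ∈ zpowers z
      have h1 : (x : P)⁻¹ * (g * x * g⁻¹) = (x : P)⁻¹ * (⁅g, (x : P)⁆ * x) := by group
      rw [h1, (hzc _ (hTcomm g x (hDT x.2)) (x : P)).symm.eq, inv_mul_cancel_left]
      exact hTcomm g x (hDT x.2)
    have hg : (e : P)⁻¹ * g ∈ centralizer (D : Set P) := mem_centralizer_iff.mpr fun x hx => by
      have h1 : g * x * g⁻¹ = (e : P) * x * (e : P)⁻¹ := by
        have h0 := congrArg Subtype.val (DFunLike.congr_fun he ⟨x, hx⟩)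
        simpa [MulAut.conjNormal_apply, MulAut.conj_apply] using h0
      calc x * ((e : P)⁻¹ * g) = (e : P)⁻¹ * ((e : P) * x * (e : P)⁻¹) * g := by group
        _ = (e : P)⁻¹ * g * x := by rw [← h1]; group
    have := mul_mem (le_sup_left (b := centralizer (D : Set P)) e.2)
      (le_sup_right (a := D) hg)
    rwa [mul_inv_cancel_left] at this
  · ext x
    constructor
    · rintro ⟨hxD, hxu⟩
      rw [hu]
      refine mem_centralizer_iff.mpr fun c hc => ?_
      obtain ⟨d, hd, v, hv, rfl⟩ := mem_sup_of_normal_left.mp (hCD hc)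
      obtain ⟨i, rfl⟩ := mem_zpowers_iff.mp hv
      exact ((show Commute x d from (mem_centralizer_iff.mp hxD d hd).symm).mul_right
        ((show Commute x u from mem_centralizer_singleton_iff.mp hxu).zpow_right i)).eq.symm
    · intro hx
      exact ⟨mem_centralizer_iff.mpr fun d hd => (((hZ x).mp hx).2 d (hDC hd)).eq.symm,
        mem_centralizer_singleton_iff.mpr (((hZ x).mp hx).2 u huC).eq⟩

end Cfsg.Agent.PGroup.Symp
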